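import Cfsg.Agent.SpecPSLTwo.Basic
import Cfsg.Agent.Invol.ElemCentralizerPSL

/-!
Recognition of `PSL(2, 2^n)` by order and element orders.
-/

set_option autoImplicit false
set_option linter.style.haveILetI false

namespace CfsgLib.SpecPSLTwo

open CfsgLib.BSW CfsgLib.Invol

universe u

variable {G : Type u} [Group G] [Finite G]

theorem even_case (n q : ℕ) (hn : q = 2 ^ n) (h4 : 4 ≤ q) (hG : Nat.card G = q * (q ^ 2 - 1))
    (hspec : ∀ g : G, orderOf g ∣ 2 ∨ orderOf g ∣ q - 1 ∨ orderOf g ∣ q + 1)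
    (hex : ∃ g : G, orderOf g = q + 1) :
    ∃ (F : Type) (_ : Field F) (_ : Fintype F), Fintype.card F = q ∧
      Nonempty (G ≃* Matrix.ProjectiveSpecialLinearGroup (Fin 2) F) := by
  haveI : Fact (Nat.Prime 2) := ⟨Nat.prime_two⟩
  have hn0 : n ≠ 0 := by rintro rfl; omega
  have h2q : 2 ∣ q := hn ▸ dvd_pow_self 2 hn0
  have hodd : ∀ {m : ℕ}, m ∣ q - 1 ∨ m ∣ q + 1 → ¬ 2 ∣ m := by
    intro m hm h2
    rcases hm with hm | hm <;> have := h2.trans hm <;> omega
  have hord : ∀ g : G, 2 ∣ orderOf g → orderOf g = 2 := by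
    intro g h2
    rcases hspec g with h | h
    · exact Nat.dvd_antisymm h h2
    · exact absurd h2 (hodd h)
  have hcent : ∀ t : G, orderOf t = 2 → ∀ c ∈ cz t, c ^ 2 = 1 := by
    intro t ht c hc
    by_cases h2 : 2 ∣ orderOf c
    · rw [← hord c h2, pow_orderOf_eq_one]
    · have hco : (orderOf t).Coprime (orderOf c) := by
        rw [ht]; exact (Nat.Prime.coprime_iff_not_dvd Nat.prime_two).2 h2
      have := (Commute.orderOf_mul_eq_mul_orderOf_of_coprime (show Commute t c from (mem_cz.1 hc).symm) hco)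
      rw [ht] at this
      have h' := hord (t * c) ⟨_, this⟩
      rw [h'] at this
      rw [orderOf_eq_one_iff.1 (show orderOf c = 1 by omega), one_pow]
  let T : Sylow 2 G := default
  have hT2 : ∀ x ∈ (T : Subgroup G), x ^ 2 = 1 := by
    intro x hx
    obtain ⟨k, hk⟩ := IsPGroup.iff_orderOf.1 T.isPGroup' ⟨x, hx⟩
    rw [Subgroup.orderOf_mk] at hk
    rcases Nat.eq_zero_or_pos k with rfl | hk0
    · rw [pow_zero, orderOf_eq_one_iff] at hk; rw [hk, one_pow]
    · rw [← hord x (hk ▸ dvd_pow_self 2 (by omega)), pow_orderOf_eq_one]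
  have hTc : Nat.card (T : Subgroup G) = q := by
    have hsq : Odd (q ^ 2 - 1) := by
      rw [Nat.odd_iff]
      have h4q : 2 ∣ q ^ 2 := dvd_pow h2q two_ne_zero
      have : 1 ≤ q ^ 2 := Nat.one_le_pow _ _ (by omega)
      omega
    rw [T.card_eq_multiplicity, hG, Nat.factorization_mul (by omega) (Nat.ne_of_gt hsq.pos), Finsupp.add_apply,
      Nat.factorization_eq_zero_of_not_dvd (n := q ^ 2 - 1) (fun h => Nat.not_even_iff_odd.2 hsq (even_iff_two_dvd.2 h)),
      add_zero, hn, Nat.factorization_pow, Finsupp.smul_apply, Nat.prime_two.factorization_self, smul_eq_mul, mul_one]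
  have hnc : ¬ IsCyclic (T : Subgroup G) := by
    intro hc
    obtain ⟨g, hg⟩ := hc.exists_generator
    have hcard : orderOf g = Nat.card (T : Subgroup G) := orderOf_eq_card_of_forall_mem_zpowers hg
    have : orderOf g ∣ 2 := orderOf_dvd_of_pow_eq_one (Subtype.ext (by simpa using hT2 g g.2))
    have := Nat.le_of_dvd two_pos this
    omega
  have hnn : ¬ (T : Subgroup G).Normal := by
    intro hN
    obtain ⟨y, hy⟩ := hex
    have hd := card_dvd_of_semiregular (Subgroup.zpowers y) (T : Subgroup G)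
      (fun c _ x hx => hN.conj_mem x hx c) (fun c hc hc1 x hx hx1 he => by
        have hx2 : orderOf x = 2 := orderOf_eq_prime (hT2 x hx) hx1
        have hcc := hcent x hx2 c (mem_cz.2 (mul_inv_eq_iff_eq_mul.1 he))
        have hd2 : orderOf c ∣ 2 := orderOf_dvd_of_pow_eq_one hcc
        have hdq : orderOf c ∣ q + 1 := by
          have h' := Subgroup.orderOf_dvd_natCard (Subgroup.zpowers y) hc
          rwa [Nat.card_zpowers, hy] at h'
        exact hc1 (orderOf_eq_one_iff.1 (Nat.eq_one_of_dvd_coprimes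
          ((Nat.Prime.coprime_iff_not_dvd Nat.prime_two).2 (hodd (Or.inr dvd_rfl))) hd2 hdq)))
    rw [Nat.card_zpowers, hy, hTc] at hd
    have := Nat.le_of_dvd (by omega) hd
    omega
  have hC : ∀ t : G, orderOf t = 2 → IsMulCommutative (Subgroup.centralizer ({t} : Set G)) ∧
      ∀ c ∈ Subgroup.centralizer ({t} : Set G), c ^ 2 = 1 := by
    refine fun t ht => ⟨⟨⟨fun a b => Subtype.ext ?_⟩⟩, hcent t ht⟩
    have hinv : ∀ c ∈ cz t, c⁻¹ = c := fun c hc => inv_eq_of_mul_eq_one_right (by rw [← pow_two]; exact hcent t ht c hc)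
    show (a : G) * b = b * a
    rw [← hinv _ (mul_mem a.2 b.2), mul_inv_rev, hinv _ a.2, hinv _ b.2]
  obtain ⟨F, iF, iFt, hF, he⟩ := CfsgLib.Invol.ElemCentralizer.nonempty_iso (T := T) ⟨hnc, hnn, hC⟩
  exact ⟨F, iF, iFt, hF.trans hTc, he⟩

end CfsgLib.SpecPSLTwo
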