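import Cfsg.Agent.SpecPSLTwo.Invol
import Cfsg.Agent.BSW.Recog

/-!
A group with the order and element orders of `PSL(2, q)`, `q` odd, has a dihedral involution centralizer.
-/

set_option autoImplicit false
set_option linter.style.haveILetI false

namespace CfsgLib.SpecPSLTwo

open CfsgLib.BSW CfsgLib.Invol
open scoped commutatorElement Pointwise

universe u

variable {G : Type u} [Group G] [Finite G]

/-- The context: a torus element, its involution and a second involution. -/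
structure Ctx (G : Type u) [Group G] [Finite G] (p q a c : ℕ) (γ s : G) (T : Sylow 2 G) (m o : ℕ) : Prop where
  H : Hyp G p q a c
  hγ : orderOf γ = c
  hc : c = 2 ^ m * o
  ho : ¬ 2 ∣ o
  hm : 0 < m
  hX : Subgroup.zpowers (γ ^ o) ≤ (T : Subgroup G)
  hTc : Nat.card (T : Subgroup G) = 2 ^ (m + 1)
  hTt : (T : Subgroup G) ≤ cz (γ ^ (c / 2))
  hct : Nat.card (cz (γ ^ (c / 2))) = 2 * c
  hsT : s ∈ (T : Subgroup G)
  hs : orderOf s = 2
  hst : s ≠ γ ^ (c / 2)

namespace Ctx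

variable {p q a c : ℕ} {γ s : G} {T : Sylow 2 G} {m o : ℕ} (D : Ctx G p q a c γ s T m o)
include D

theorem orderOf_x : orderOf (γ ^ o) = 2 ^ m := by
  rw [orderOf_pow, D.hγ, Nat.gcd_eq_right (D.hc ▸ dvd_mul_left o _), D.hc,
    Nat.mul_div_cancel _ (Nat.pos_of_ne_zero fun h => D.ho (by rw [h]; exact dvd_zero 2))]

theorem cardX : Nat.card (Subgroup.zpowers (γ ^ o)) = 2 ^ m := by rw [Nat.card_zpowers, D.orderOf_x]

theorem mem_C_of_X {z : G} (hz : z ∈ Subgroup.zpowers (γ ^ o)) : z ∈ Subgroup.zpowers γ :=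
  (Subgroup.zpowers_le.2 (pow_mem (Subgroup.mem_zpowers γ) o)) hz

theorem conj_t {w : G} (hw : orderOf w = 2) : ∃ g, g * w * g⁻¹ = γ ^ (c / 2) :=
  D.H.conj_t D.hγ D.hX D.cardX D.hTc hw

theorem hconj : ∀ x y : G, orderOf x = 2 → orderOf y = 2 → IsConj x y := fun x y hx hy => by
  obtain ⟨g, hg⟩ := D.conj_t hx
  obtain ⟨h, hh⟩ := D.conj_t hy
  exact (isConj_iff.2 ⟨g, hg⟩).trans (isConj_iff.2 ⟨h, hh⟩).symm

theorem sq_eq_one {y : G} (hy : y ∈ Subgroup.zpowers (γ ^ o)) (hys : y ∈ cz s) : y * y = 1 := by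
  obtain ⟨k, -, hk⟩ := (Nat.dvd_prime_pow Nat.prime_two).1 (D.cardX ▸ Subgroup.orderOf_dvd_natCard _ hy)
  exact D.H.sq_eq_one_of_commute D.hγ D.hct D.hst (D.conj_t D.hs) (D.mem_C_of_X hy) hk hys

theorem hsH : s ∈ cz (γ ^ (c / 2)) := D.hTt D.hsT

theorem conj_C {g w : G} (hg : g ∈ cz (γ ^ (c / 2))) (hw : w ∈ Subgroup.zpowers γ) :
    g * w * g⁻¹ ∈ Subgroup.zpowers γ :=
  conj_mem_of_card_le (zpowers_le_cz (pow_mem (Subgroup.mem_zpowers γ) _))
    (dvd_of_eq (by rw [D.hct, Nat.card_zpowers, D.hγ])) hg hw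

theorem conj_X {g w : G} (hg : g ∈ (T : Subgroup G)) (hw : w ∈ Subgroup.zpowers (γ ^ o)) :
    g * w * g⁻¹ ∈ Subgroup.zpowers (γ ^ o) :=
  conj_mem_of_card_le D.hX (dvd_of_eq (by rw [D.hTc, D.cardX, pow_succ'])) hg hw

theorem xpow_half : (γ ^ o) ^ 2 ^ (m - 1) = γ ^ (c / 2) := by
  have hm := D.hm
  obtain ⟨k, rfl⟩ : ∃ k, m = k + 1 := ⟨m - 1, by omega⟩
  rw [← pow_mul, D.hc, Nat.add_sub_cancel,
    show 2 ^ (k + 1) * o / 2 = o * 2 ^ k by rw [pow_succ', mul_assoc, Nat.mul_div_cancel_left _ two_pos, mul_comm]]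

/-- The second involution inverts the 2-part of the torus. -/
theorem inverts_X : s * (γ ^ o) * s⁻¹ = (γ ^ o)⁻¹ := by
  haveI : Fact (Nat.Prime 2) := ⟨Nat.prime_two⟩
  set x := γ ^ o with hxdef
  set t := γ ^ (c / 2) with htdef
  have hxX : x ∈ Subgroup.zpowers x := Subgroup.mem_zpowers x
  have hss := mul_self_of_orderOf D.hs
  have hsinv : s⁻¹ = s := inv_eq_of_mul_eq_one_right hss
  have hsx : s * x * s⁻¹ ∈ Subgroup.zpowers x := D.conj_X D.hsT hxX
  set z := s * x * s⁻¹ * x with hz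
  have hzX : z ∈ Subgroup.zpowers x := mul_mem hsx hxX
  have hzs : z ∈ cz s := by
    refine mem_cz.2 ?_
    have h1 : s * z * s⁻¹ = z := by
      rw [hz]
      calc s * (s * x * s⁻¹ * x) * s⁻¹ = (s * s) * x * (s * s)⁻¹ * (s * x * s⁻¹) := by group
        _ = x * (s * x * s⁻¹) := by rw [hss, inv_one, one_mul, mul_one]
        _ = _ := commute_of_mem_zpowers hxX hsx
    exact (mul_inv_eq_iff_eq_mul.1 h1).symm
  rcases eq_half_or_one D.hγ (even_iff_two_dvd.2 D.H.ceven) (D.mem_C_of_X hzX) (D.sq_eq_one hzX hzs) with h | h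
  · exact eq_inv_of_mul_eq_one_left h
  exfalso
  have ht := D.H.orderOf_t D.hγ
  have ht1 : t ≠ 1 := ne_one_of_orderOf ht
  have htt : t * t = 1 := mul_self_of_orderOf ht
  have hst : s * t = t * s := mem_cz.1 D.hsH
  have hxpow : x ^ 2 ^ (m - 1) = t := D.xpow_half
  have hm0 := D.hm
  -- `m ≥ 3`
  have hsx' : s * x * s⁻¹ = t * x⁻¹ := eq_mul_inv_of_mul_eq h
  have hm : 3 ≤ m := by
    by_contra hm
    interval_cases m
    · rw [show (1 : ℕ) - 1 = 0 from rfl, pow_zero, pow_one] at hxpow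
      rw [hxpow, hsinv] at hsx'
      rw [hst, mul_assoc, hss, mul_one, mul_inv_cancel] at hsx'
      exact ht1 hsx'
    · rw [show (2 : ℕ) - 1 = 1 from rfl, pow_one] at hxpow
      rw [← hxpow, pow_two, mul_inv_cancel_right] at hsx'
      have := D.sq_eq_one hxX (mem_cz.2 (mul_inv_eq_iff_eq_mul.1 hsx').symm)
      rw [← pow_two, hxpow] at this
      exact ht1 this
  have htx : Commute t x := commute_of_mem_zpowers (pow_mem (Subgroup.mem_zpowers γ) _) (D.mem_C_of_X hxX)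
  have hpow : ∀ i : ℕ, s * x ^ i * s⁻¹ = t ^ i * (x ^ i)⁻¹ := fun i => by
    rw [← conj_pow, hsx', htx.inv_right.mul_pow, inv_pow]
  have hev : ∀ i : ℕ, Even i → t ^ i = 1 := fun i hi => by
    obtain ⟨j, rfl⟩ := hi; rw [pow_add, ← (Commute.refl t).mul_pow, htt, one_pow]
  have hod : ∀ i : ℕ, Odd i → t ^ i = t := fun i hi => by
    obtain ⟨j, rfl⟩ := hi; rw [pow_succ, pow_mul, pow_two, htt, one_pow, one_mul]
  set E := Subgroup.zpowers (x ^ 2) with hE
  have hEX : E ≤ Subgroup.zpowers x := Subgroup.zpowers_le.2 (pow_mem hxX 2)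
  have hEpow : ∀ i : ℕ, Even i → x ^ i ∈ E := fun i hi => by
    obtain ⟨j, rfl⟩ := hi; rw [← two_mul, pow_mul]; exact pow_mem (Subgroup.mem_zpowers _) j
  have hEmem : ∀ e ∈ E, ∃ i : ℕ, Even i ∧ x ^ i = e := fun e he => by
    obtain ⟨j, rfl⟩ := (Submonoid.mem_powers_iff _ _).1 ((mem_powers_iff_mem_zpowers).2 he)
    exact ⟨2 * j, even_two_mul j, pow_mul x 2 j⟩
  have hEinv : ∀ e ∈ E, s * e * s⁻¹ = e⁻¹ := fun e he => by
    obtain ⟨i, hi, rfl⟩ := hEmem e he
    rw [hpow, hev i hi, one_mul]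
  have hnE : Subgroup.zpowers s ≤ Subgroup.normalizer (E : Set G) := by
    rw [Subgroup.zpowers_le, Subgroup.mem_normalizer_iff]
    intro e
    refine ⟨fun he => hEinv e he ▸ inv_mem he, fun he => ?_⟩
    have h2 := hEinv _ he
    rw [show s * (s * e * s⁻¹) * s⁻¹ = (s * s) * e * (s * s)⁻¹ by group, hss, inv_one, one_mul, mul_one] at h2
    rw [h2]; exact inv_mem he
  set M := E ⊔ Subgroup.zpowers s with hM
  have hsM : s ∈ M := Subgroup.mem_sup_right (Subgroup.mem_zpowers s)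
  have hmemM : ∀ g ∈ M, g ∈ E ∨ g * s ∈ E := by
    intro g hg
    rw [← SetLike.mem_coe, hM, Subgroup.coe_mul_of_right_le_normalizer_left _ _ hnE] at hg
    obtain ⟨e, he, v, hv, rfl⟩ := hg
    rcases eq_half_or_one D.hs even_two hv (by
      obtain ⟨k, rfl⟩ := Subgroup.mem_zpowers_iff.1 hv
      rw [← (Commute.refl s).mul_zpow, hss, one_zpow]) with rfl | rfl
    · left; simpa using he
    · right; simpa [mul_assoc, hss] using he
  -- the elements of `T`
  have hrel : ((Subgroup.zpowers x).subgroupOf (T : Subgroup G)).index = 2 := by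
    have h1 := Subgroup.card_mul_index ((Subgroup.zpowers x).subgroupOf (T : Subgroup G))
    rw [Nat.card_congr (Subgroup.subgroupOfEquivOfLe D.hX).toEquiv, D.cardX, D.hTc, pow_succ] at h1
    exact Nat.eq_of_mul_eq_mul_left (by positivity) h1
  have hsX : s ∉ Subgroup.zpowers x := fun h => D.H.not_mem_C D.hγ D.hs D.hst (D.mem_C_of_X h)
  have hTel : ∀ g ∈ (T : Subgroup G), ∃ i : ℕ, g = x ^ i ∨ g = x ^ i * s := by
    intro g hg
    by_cases hgX : g ∈ Subgroup.zpowers x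
    · obtain ⟨i, hi⟩ := (Submonoid.mem_powers_iff _ _).1 ((mem_powers_iff_mem_zpowers).2 hgX)
      exact ⟨i, Or.inl hi.symm⟩
    · have h2 : g * s ∈ Subgroup.zpowers x := by
        have := (Subgroup.mul_mem_iff_of_index_two hrel (a := ⟨g, hg⟩) (b := ⟨s, D.hsT⟩)).2
          (by simp only [Subgroup.mem_subgroupOf]; tauto)
        simpa [Subgroup.mem_subgroupOf] using this
      obtain ⟨i, hi⟩ := (Submonoid.mem_powers_iff _ _).1 ((mem_powers_iff_mem_zpowers).2 h2)
      exact ⟨i, Or.inr (by rw [hi, mul_assoc, hss, mul_one])⟩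
  have hout : ∀ g ∈ (T : Subgroup G), g ∉ M → ∃ i : ℕ, Odd i ∧ (g = x ^ i ∨ g = x ^ i * s) := by
    intro g hg hgM
    obtain ⟨i, hi⟩ := hTel g hg
    refine ⟨i, Nat.not_even_iff_odd.1 fun he => hgM ?_, hi⟩
    rcases hi with rfl | rfl
    · exact Subgroup.mem_sup_left (hEpow i he)
    · exact mul_mem (Subgroup.mem_sup_left (hEpow i he)) hsM
  have hxM : x ∉ M := by
    intro hx
    rcases hmemM x hx with h1 | h1
    · obtain ⟨i, hi, hie⟩ := hEmem x h1
      have h2 : x ^ i * x⁻¹ = 1 := by rw [hie, mul_inv_cancel]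
      obtain ⟨j, rfl⟩ := hi
      have hox : (2 : ℕ) ∣ orderOf x := by rw [D.orderOf_x]; exact dvd_pow_self 2 (by omega)
      rcases Nat.eq_zero_or_pos j with rfl | hj
      · rw [add_zero, pow_zero, one_mul, inv_eq_one] at h2
        rw [h2, orderOf_one] at hox; omega
      · have h3 : x ^ (j + j - 1) = 1 := by
          rw [← h2, ← pow_sub_one_mul (show j + j ≠ 0 by omega), mul_inv_cancel_right]
        have := hox.trans (orderOf_dvd_of_pow_eq_one h3)
        omega
    · exact hsX (by simpa using mul_mem (inv_mem hxX) (hEX h1))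
  -- fusion preserves `M`
  have key : ∀ u ∈ M, ∀ g : G, g * u * g⁻¹ ∈ (T : Subgroup G) → g * u * g⁻¹ ∈ M := by
    intro u hu g hv
    by_contra hvM
    obtain ⟨i, hi, hv'⟩ := hout _ hv hvM
    have hu4 : u ∈ E ∨ u * u = 1 := by
      rcases hmemM u hu with h1 | h1
      · exact Or.inl h1
      · right
        have h2 := hEinv _ h1
        rw [show s * (u * s) * s⁻¹ = s * u by group] at h2
        calc u * u = (u * s) * (s * u) := by
              rw [show u * s * (s * u) = u * (s * s) * u by group, hss, mul_one]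
          _ = 1 := by rw [h2, mul_inv_cancel]
    rcases hv' with hv' | hv'
    · have hu1 : u ^ 2 ^ (m - 1) = 1 := by
        rcases hu4 with h1 | h1
        · obtain ⟨j, hj, rfl⟩ := hEmem u h1
          rw [← pow_mul, mul_comm, pow_mul, hxpow, hev j hj]
        · rw [show 2 ^ (m - 1) = 2 * 2 ^ (m - 2) by rw [← pow_succ']; congr 1; omega, pow_mul, pow_two, h1, one_pow]
      have h2 : (g * u * g⁻¹) ^ 2 ^ (m - 1) = 1 := by rw [conj_pow, hu1, mul_one, mul_inv_cancel]
      rw [hv', ← pow_mul, mul_comm, pow_mul, hxpow, hod i hi] at h2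
      exact ht1 h2
    · have hvv : g * u * g⁻¹ * (g * u * g⁻¹) = t := by
        rw [hv']
        calc x ^ i * s * (x ^ i * s) = x ^ i * (s * x ^ i * s⁻¹) * (s * s) := by group
          _ = t := by
              rw [hpow, hod i hi, hss, mul_one, ← mul_assoc, ← (htx.pow_right i).eq, mul_inv_cancel_right]
      rw [show g * u * g⁻¹ * (g * u * g⁻¹) = g * (u * u) * g⁻¹ by group] at hvv
      rcases hu4 with h1 | h1
      · have hu2 : u * u = t := D.H.eq_t D.hγ (mul_mem (D.mem_C_of_X (hEX h1)) (D.mem_C_of_X (hEX h1))) (by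
          rw [← MulEquiv.orderOf_eq (MulAut.conj g) (u * u), MulAut.conj_apply, hvv, ht])
        rw [hu2] at hvv
        have hgt : g ∈ cz t := mem_cz.2 (mul_inv_eq_iff_eq_mul.1 hvv)
        have h2 := D.conj_C hgt (D.mem_C_of_X (hEX h1))
        rw [hv'] at h2
        have := mul_mem (inv_mem (pow_mem (D.mem_C_of_X hxX) i)) h2
        rw [inv_mul_cancel_left] at this
        exact D.H.not_mem_C D.hγ D.hs D.hst this
      · rw [h1, mul_one, mul_inv_cancel] at hvv
        exact ht1 hvv.symm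
  -- both outside
  have hxconj : ∀ w ∈ M, x * w * x⁻¹ ∈ M := by
    intro w hw
    rcases hmemM w hw with h1 | h1
    · rw [commute_of_mem_zpowers hxX (hEX h1), mul_inv_cancel_right]; exact hw
    · have h2 : x * s * x⁻¹ ∈ M := by
        have h3 : x * s * x⁻¹ = x ^ 2 * t * s := by
          have h4 : s * x⁻¹ * s⁻¹ = t * x := by
            rw [← conj_inv, hsx', mul_inv_rev, inv_inv, inv_eq_of_mul_eq_one_right htt, ← htx.eq]
          calc x * s * x⁻¹ = x * (s * x⁻¹ * s⁻¹) * s := by group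
            _ = _ := by rw [h4, htx.eq, pow_two]; group
        rw [h3]
        refine mul_mem (mul_mem (Subgroup.mem_sup_left (Subgroup.mem_zpowers _)) (Subgroup.mem_sup_left ?_)) hsM
        rw [← hxpow]
        exact hEpow _ (Nat.even_pow.2 ⟨even_two, by omega⟩)
      have h5 : x * w * x⁻¹ = (w * s) * (x * s * x⁻¹) := by
        calc x * w * x⁻¹ = x * (w * (s * s)) * x⁻¹ := by rw [hss, mul_one]
          _ = (x * (w * s)) * (s * x⁻¹) := by group
          _ = _ := by rw [commute_of_mem_zpowers hxX (hEX h1)]; group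
      rw [h5]; exact mul_mem (Subgroup.mem_sup_left h1) h2
  have hfix : ∀ u ∈ (T : Subgroup G), u ∉ M → x⁻¹ * u ∈ M := by
    intro u hu huM
    obtain ⟨i, hi, hu'⟩ := hout u hu huM
    obtain ⟨j, rfl⟩ := hi
    have hj : x⁻¹ * x ^ (2 * j + 1) = x ^ (2 * j) := by rw [pow_succ', inv_mul_cancel_left]
    rcases hu' with rfl | rfl
    · rw [hj]; exact Subgroup.mem_sup_left (hEpow _ (even_two_mul j))
    · rw [← mul_assoc, hj]; exact mul_mem (Subgroup.mem_sup_left (hEpow _ (even_two_mul j))) hsM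
  have hfoc : (T : Subgroup G).focalSubgroup ≤ M := by
    refine CfsgLib.Transfer.focalSubgroup_le_of_forall fun u hu g hg => ?_
    rw [show g * u⁻¹ * g⁻¹ = (g * u * g⁻¹)⁻¹ by group]
    by_cases huM : u ∈ M
    · exact mul_mem huM (inv_mem (key u huM g hg))
    · have hvM : g * u * g⁻¹ ∉ M := fun h => huM (by
        have := key _ h g⁻¹
        rw [show g⁻¹ * (g * u * g⁻¹) * g⁻¹⁻¹ = u by group] at this
        exact this hu)
      have h1 := hxconj _ (mul_mem (hfix u hu huM) (inv_mem (hfix _ hg hvM)))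
      convert h1 using 1
      group
  refine hxM (hfoc ?_)
  rw [← CfsgLib.Transfer.inf_commutator_eq_focal T, D.H.perfect, inf_top_eq]
  exact D.hX hxX

theorem sup_eq : Subgroup.zpowers γ ⊔ Subgroup.zpowers s = cz (γ ^ (c / 2)) :=
  D.H.sup_eq D.hγ D.hs D.hst D.hsH D.hct

/-- No element of odd prime order of the even torus commutes with the second involution. -/
theorem no_odd_commute {y : G} (hy : y ∈ Subgroup.zpowers γ) {r : ℕ} (hr : r.Prime) (hr2 : r ≠ 2)
    (hyr : orderOf y = r) : y ∉ cz s := by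
  classical
  intro hys
  haveI := Fact.mk hr
  set t := γ ^ (c / 2) with htdef
  set C := Subgroup.zpowers γ with hC
  have hrc : r ∣ c := by
    have := Subgroup.orderOf_dvd_natCard _ hy
    rwa [hyr, hC, Nat.card_zpowers, D.hγ] at this
  have hczy : cz y = cz t := by
    refine (Subgroup.eq_of_le_of_card_ge ?_ ?_).symm
    · rw [htdef, ← D.sup_eq, sup_le_iff, Subgroup.zpowers_le]
      exact ⟨zpowers_le_cz hy (Subgroup.mem_zpowers γ), Subgroup.zpowers_le.2 (mem_cz_comm.1 hys)⟩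
    · rw [D.hct]
      exact Nat.le_of_dvd (by have := D.H.cpos; omega) (D.H.card_cz_dvd D.hγ hy (hyr ▸ hr))
  obtain ⟨R, hR, hRne⟩ := exists_sylow_le (r := r) C (fun h => by
    rw [hC, D.H.index_C D.hγ] at h
    rcases hr.dvd_mul.1 h with h | h
    · exact hr2 ((Nat.prime_dvd_prime_iff_eq hr Nat.prime_two).1 h)
    · exact hr.ne_one (Nat.eq_one_of_dvd_coprimes (D.H.cop_qc.symm.mul_right D.H.cop_ac.symm) hrc h))
  have hRne' := hRne (by rw [hC, Nat.card_zpowers, D.hγ]; exact hrc)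
  have hzy : ∀ z ∈ C, orderOf z = r → z ∈ Subgroup.zpowers y := fun z hz hzr =>
    (zpowers_eq_of_prime D.hγ hr hz hy hzr hyr) ▸ Subgroup.mem_zpowers z
  have hyR : y ∈ (R : Subgroup G) := by
    haveI : Nontrivial (R : Subgroup G) := (Subgroup.nontrivial_iff_ne_bot _).2 hRne'
    obtain ⟨j, hj⟩ := R.isPGroup'.exists_card_eq
    have hj0 : j ≠ 0 := fun h => by
      rw [h, pow_zero] at hj; exact hRne' (Subgroup.card_eq_one.1 hj)
    obtain ⟨z, hz⟩ := exists_prime_orderOf_dvd_card' (G := (R : Subgroup G)) r (hj ▸ dvd_pow_self r hj0)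
    have hzr : orderOf (z : G) = r := by rw [Subgroup.orderOf_coe, hz]
    have h1 := zpowers_eq_of_prime D.hγ hr (hR z.2) hy hzr hyr
    exact Subgroup.zpowers_le.2 z.2 (h1 ▸ Subgroup.mem_zpowers y)
  have hss := mul_self_of_orderOf D.hs
  -- `s` centralizes `R`
  have hsR : ∀ ρ ∈ (R : Subgroup G), s * ρ = ρ * s := by
    intro ρ hρ
    have hsC : s * ρ * s⁻¹ ∈ C := D.conj_C D.hsH (hR hρ)
    set d := s * ρ * s⁻¹ * ρ⁻¹ with hd
    by_contra hne
    have hd1 : d ≠ 1 := fun e => hne (mul_inv_eq_iff_eq_mul.1 (mul_inv_eq_one.1 e))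
    have hdC : d ∈ C := mul_mem hsC (inv_mem (hR hρ))
    have hdinv : s * d * s⁻¹ = d⁻¹ := by
      rw [hd]
      calc s * (s * ρ * s⁻¹ * ρ⁻¹) * s⁻¹ = (s * s) * ρ * (s * s)⁻¹ * (s * ρ * s⁻¹)⁻¹ := by group
        _ = _ := by rw [hss, inv_one, one_mul, mul_one, mul_inv_rev (s * ρ * s⁻¹), inv_inv]
    obtain ⟨j, hj⟩ := IsPGroup.iff_orderOf.1 R.isPGroup' ⟨ρ, hρ⟩
    rw [Subgroup.orderOf_mk] at hj
    have hdo : orderOf d ∣ r ^ j := by
      refine orderOf_dvd_of_pow_eq_one ?_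
      rw [(show Commute (s * ρ * s⁻¹) ρ⁻¹ from commute_of_mem_zpowers hsC (inv_mem (hR hρ))).mul_pow, conj_pow,
        inv_pow, ← hj, pow_orderOf_eq_one, mul_one, mul_inv_cancel, one_mul, inv_one]
    obtain ⟨z, hz, hzp⟩ := exists_prime_power_mem hd1
    have hzr : orderOf z = r := by
      refine (Nat.prime_dvd_prime_iff_eq hzp hr).1 (hzp.dvd_of_dvd_pow (n := j) (dvd_trans ?_ hdo))
      rw [← Nat.card_zpowers d]; exact Subgroup.orderOf_dvd_natCard _ hz
    have hzinv : s * z * s⁻¹ = z⁻¹ := by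
      obtain ⟨k, rfl⟩ := Subgroup.mem_zpowers_iff.1 hz
      rw [← conj_zpow, hdinv, inv_zpow]
    have hmem : y ∈ Subgroup.zpowers z :=
      (zpowers_eq_of_prime D.hγ hr (Subgroup.zpowers_le.2 hdC hz) hy hzr hyr).symm ▸ Subgroup.mem_zpowers y
    obtain ⟨k, rfl⟩ := Subgroup.mem_zpowers_iff.1 hmem
    have h1 : s * z ^ k * s⁻¹ = (z ^ k)⁻¹ := by rw [← conj_zpow, hzinv, inv_zpow]
    rw [(mem_cz_comm.1 hys |> mem_cz.1), mul_inv_cancel_right, eq_inv_iff_mul_eq_one] at h1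
    have : r ∣ 2 := hyr ▸ orderOf_dvd_of_pow_eq_one (by rw [pow_two]; exact h1)
    exact hr2 ((Nat.prime_dvd_prime_iff_eq hr Nat.prime_two).1 this)
  have hcentR : cz t ≤ Subgroup.centralizer ((R : Subgroup G) : Set G) := by
    rw [htdef, ← D.sup_eq, sup_le_iff, Subgroup.zpowers_le, Subgroup.zpowers_le]
    exact ⟨Subgroup.mem_centralizer_iff.2 fun w hw => commute_of_mem_zpowers (hR hw) (Subgroup.mem_zpowers γ),
      Subgroup.mem_centralizer_iff.2 fun w hw => (hsR w hw).symm⟩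
  set N := Subgroup.normalizer ((R : Subgroup G) : Set G) with hN
  have hle : cz t ≤ N := hcentR.trans (Subgroup.centralizer_le_normalizer _)
  -- the index of the centralizer in the normalizer
  set e := (cz t).relIndex N with he
  have he1 : e ≤ r - 1 := by
    haveI := Fintype.ofFinite (Subgroup.zpowers y)
    have h2 : Nat.card {w : Subgroup.zpowers y // w ≠ 1} = r - 1 := by
      rw [Nat.card_eq_fintype_card, Fintype.card_subtype_compl, Fintype.card_subtype_eq,
        ← Nat.card_eq_fintype_card, Nat.card_zpowers, hyr]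
    rw [← h2, he, Subgroup.relIndex, Subgroup.index_eq_card]
    have hmem : ∀ g : N, (g : G) * y * (g : G)⁻¹ ∈ Subgroup.zpowers y := fun g =>
      hzy _ (hR ((Subgroup.mem_normalizer_iff.1 g.2 y).1 hyR))
        ((MulEquiv.orderOf_eq (MulAut.conj (g : G)) y).trans hyr)
    refine Nat.card_le_card_of_injective (fun x => ⟨⟨_, hmem x.out⟩, fun h =>
      hr.ne_one (by
        have := conj_eq_one_iff.1 (congrArg Subtype.val h)
        rw [← hyr, this, orderOf_one])⟩) ?_
    intro x x' hxx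
    have h3 : (x.out : G) * y * (x.out : G)⁻¹ = (x'.out : G) * y * (x'.out : G)⁻¹ :=
      congrArg (fun w : {w : Subgroup.zpowers y // w ≠ 1} => ((w.1 : Subgroup.zpowers y) : G)) hxx
    have h4 : (x.out : G)⁻¹ * x'.out ∈ cz y := by
      rw [mem_cz]
      calc (x.out : G)⁻¹ * x'.out * y = (x.out : G)⁻¹ * ((x'.out : G) * y * (x'.out : G)⁻¹) * x'.out := by group
        _ = (x.out : G)⁻¹ * ((x.out : G) * y * (x.out : G)⁻¹) * x'.out := by rw [h3]
        _ = _ := by group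
    rw [← QuotientGroup.out_eq' x, ← QuotientGroup.out_eq' x', QuotientGroup.eq, Subgroup.mem_subgroupOf,
      Subgroup.coe_mul, Subgroup.coe_inv]
    exact hczy.le h4
  have hidx : (cz t).index = q * a := by
    have h1 := Subgroup.card_mul_index (cz t)
    rw [D.hct, D.H.card] at h1
    exact Nat.eq_of_mul_eq_mul_left (show 0 < 2 * c by have := D.H.cpos; omega) (h1.trans (by ring))
  have he2 : e = 1 := by
    obtain ⟨k, hk, -⟩ := D.H.qa_eq
    have h4 : e * N.index = c * k + 1 := by rw [he, Subgroup.relIndex_mul_index hle, hidx, hk]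
    have h5 : (N.index : ZMod r) = 1 := by
      have := card_sylow_modEq_one r G
      rw [Sylow.card_eq_index_normalizer R] at this
      rw [← Nat.cast_one, ZMod.natCast_eq_natCast_iff]
      exact this
    have h6 := congrArg (fun n : ℕ => (n : ZMod r)) h4
    simp only [Nat.cast_mul, Nat.cast_add, Nat.cast_one, h5, mul_one,
      (ZMod.natCast_eq_zero_iff c r).2 hrc, zero_mul, zero_add] at h6
    have h7 : (e : ZMod r) = ((1 : ℕ) : ZMod r) := by rw [h6, Nat.cast_one]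
    have h8 := congrArg ZMod.val h7
    have := hr.two_le
    rwa [ZMod.val_natCast, ZMod.val_natCast, Nat.mod_eq_of_lt (by omega), Nat.mod_eq_of_lt (by omega)] at h8
  have hNle : N ≤ Subgroup.centralizer ((R : Subgroup G) : Set G) :=
    (Subgroup.relIndex_eq_one.1 he2).trans hcentR
  obtain ⟨S, K, hKn, hKS⟩ := CfsgLib.Transfer.burnside_normal_complement R hNle
  haveI := hKn
  have hKidx : K.index = Nat.card (S : Subgroup G) := hKS.symm.index_eq_card
  haveI : Nontrivial (G ⧸ K) := QuotientGroup.nontrivial_iff.2 fun hK => by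
    rw [hK, Subgroup.index_top] at hKidx
    have hSne : (S : Subgroup G) ≠ ⊥ := S.ne_bot_of_dvd_card (by
      rw [D.H.card]; exact hrc.mul_left _)
    exact hSne (Subgroup.card_eq_one.1 hKidx.symm)
  have hpg : IsPGroup r (G ⧸ K) := by
    obtain ⟨j, hj⟩ := S.isPGroup'.exists_card_eq
    exact IsPGroup.of_card (n := j) (by rw [← Subgroup.index_eq_card, hKidx, hj])
  refine CfsgLib.Transfer.commutator_ne_top_of_isPGroup hpg ?_
  have := congrArg (Subgroup.map (QuotientGroup.mk' K)) D.H.perfect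
  rwa [commutator_def, Subgroup.map_commutator, Subgroup.map_top_of_surjective _
    (QuotientGroup.mk'_surjective _), ← commutator_def] at this

/-- The second involution inverts the even torus. -/
theorem inverts : ∀ x ∈ Subgroup.zpowers γ, s * x * s⁻¹ = x⁻¹ := by
  suffices h : s * γ * s⁻¹ = γ⁻¹ by
    intro x hx
    obtain ⟨k, rfl⟩ := Subgroup.mem_zpowers_iff.1 hx
    rw [← conj_zpow, h, inv_zpow]
  have hss := mul_self_of_orderOf D.hs
  have hγC := Subgroup.mem_zpowers γ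
  have hsC : s * γ * s⁻¹ ∈ Subgroup.zpowers γ := D.conj_C D.hsH hγC
  set z := s * γ * s⁻¹ * γ with hz
  have hzC : z ∈ Subgroup.zpowers γ := mul_mem hsC hγC
  have hzs : z ∈ cz s := by
    have h1 : s * z * s⁻¹ = z := by
      rw [hz]
      calc s * (s * γ * s⁻¹ * γ) * s⁻¹ = (s * s) * γ * (s * s)⁻¹ * (s * γ * s⁻¹) := by group
        _ = γ * (s * γ * s⁻¹) := by rw [hss, inv_one, one_mul, mul_one]
        _ = _ := commute_of_mem_zpowers hγC hsC
    exact mem_cz.2 (mul_inv_eq_iff_eq_mul.1 h1).symm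
  have hzo : z ^ o = 1 := by
    rw [hz, (show Commute (s * γ * s⁻¹) γ from commute_of_mem_zpowers hsC hγC).mul_pow, conj_pow, D.inverts_X,
      inv_mul_cancel]
  refine eq_inv_of_mul_eq_one_left ?_
  by_contra hne
  obtain ⟨w, hw, hwp⟩ := exists_prime_power_mem hne
  have hwo : orderOf w ∣ o := by
    refine dvd_trans ?_ (orderOf_dvd_of_pow_eq_one hzo)
    rw [← Nat.card_zpowers z]; exact Subgroup.orderOf_dvd_natCard _ hw
  exact D.no_odd_commute (Subgroup.zpowers_le.2 hzC hw) hwp (fun e => D.ho (e ▸ hwo)) rfl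
    (Subgroup.zpowers_le.2 hzs hw)

theorem inf_cz_s : Subgroup.zpowers γ ⊓ cz s = Subgroup.zpowers (γ ^ (c / 2)) := by
  refine le_antisymm (fun x hx => ?_) (Subgroup.zpowers_le.2 ⟨pow_mem (Subgroup.mem_zpowers γ) _,
    mem_cz_comm.1 D.hsH⟩)
  obtain ⟨hxC, hxs⟩ := hx
  have h := D.inverts x hxC
  rw [show s * x = x * s from (mem_cz.1 hxs).symm, mul_inv_cancel_right, eq_inv_iff_mul_eq_one] at h
  rcases eq_half_or_one D.hγ (even_iff_two_dvd.2 D.H.ceven) hxC h with rfl | rfl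
  · exact one_mem _
  · exact Subgroup.mem_zpowers _

theorem cz_eq_C {z : G} (hz : z ∈ Subgroup.zpowers γ) (hzp : (orderOf z).Prime) (hz2 : orderOf z ≠ 2) :
    cz z = Subgroup.zpowers γ := by
  refine le_antisymm (fun w hw => ?_) (zpowers_le_cz hz)
  have ht := D.H.orderOf_t D.hγ
  have h1 := conj_mem_of_card_le (zpowers_le_cz hz)
    (by rw [Nat.card_zpowers, D.hγ]; exact D.H.card_cz_dvd D.hγ hz hzp) hw
    (pow_mem (Subgroup.mem_zpowers γ) (c / 2))
  have h2 := D.H.eq_t D.hγ h1 ((MulEquiv.orderOf_eq (MulAut.conj w) _).trans ht)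
  have hwt : w ∈ cz (γ ^ (c / 2)) := mem_cz.2 (mul_inv_eq_iff_eq_mul.1 h2)
  by_contra hwC
  have hle : Subgroup.zpowers s ≤ Subgroup.normalizer (Subgroup.zpowers γ : Set G) := by
    rw [Subgroup.zpowers_le, Subgroup.mem_normalizer_iff]
    intro e
    refine ⟨fun he => D.conj_C D.hsH he, fun he => ?_⟩
    have := D.conj_C (inv_mem D.hsH) he
    rwa [show s⁻¹ * (s * e * s⁻¹) * s⁻¹⁻¹ = e by group] at this
  rw [← D.sup_eq, ← SetLike.mem_coe, Subgroup.coe_mul_of_right_le_normalizer_left _ _ hle] at hwt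
  obtain ⟨e, he, v, hv, rfl⟩ := hwt
  rcases eq_half_or_one D.hs even_two hv (by
    obtain ⟨k, rfl⟩ := Subgroup.mem_zpowers_iff.1 hv
    rw [← (Commute.refl s).mul_zpow, mul_self_of_orderOf D.hs, one_zpow]) with rfl | rfl
  · exact hwC (by simpa using he)
  · rw [show 2 / 2 = 1 from rfl, pow_one] at hw
    have h3 : e * s * z * (e * s)⁻¹ = z := mul_inv_eq_iff_eq_mul.2 (mem_cz.1 hw)
    rw [show e * s * z * (e * s)⁻¹ = e * (s * z * s⁻¹) * e⁻¹ by group, D.inverts z hz,
      commute_of_mem_zpowers he (inv_mem hz), mul_inv_cancel_right, inv_eq_iff_mul_eq_one, ← pow_two] at h3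
    exact hz2 ((Nat.prime_dvd_prime_iff_eq hzp Nat.prime_two).1 (orderOf_dvd_of_pow_eq_one h3))

theorem hTI : ∀ g : G, g ∉ cz (γ ^ (c / 2)) →
    Subgroup.zpowers γ ⊓ (Subgroup.zpowers γ).map (MulAut.conj g).toMonoidHom = ⊥ := by
  intro g hg
  by_contra hne
  obtain ⟨⟨x, hxC, hxg⟩, hx1⟩ := (Subgroup.ne_bot_iff_exists_ne_one).1 hne
  obtain ⟨z, hz, hzp⟩ := exists_prime_power_mem (fun e => hx1 (Subtype.ext e) : x ≠ 1)
  have hzC : z ∈ Subgroup.zpowers γ := Subgroup.zpowers_le.2 hxC hz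
  obtain ⟨w, hw, hwz⟩ : z ∈ (Subgroup.zpowers γ).map (MulAut.conj g).toMonoidHom := Subgroup.zpowers_le.2 hxg hz
  have hwo : orderOf w = orderOf z := by rw [← hwz]; exact (MulEquiv.orderOf_eq (MulAut.conj g) w).symm
  have hwz' : g * w * g⁻¹ = z := hwz
  have ht := D.H.orderOf_t D.hγ
  refine hg (mem_cz.2 ?_)
  by_cases h2 : orderOf z = 2
  · rw [D.H.eq_t D.hγ hzC h2, D.H.eq_t D.hγ hw (hwo.trans h2)] at hwz'
    exact mul_inv_eq_iff_eq_mul.1 hwz'
  · have h1 := D.cz_eq_C hw (hwo ▸ hzp) (hwo ▸ h2)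
    have h3 : g * γ ^ (c / 2) * g⁻¹ ∈ cz (g * w * g⁻¹) :=
      (cz_conj g).2 (h1 ▸ pow_mem (Subgroup.mem_zpowers γ) _)
    rw [hwz', D.cz_eq_C hzC hzp h2] at h3
    exact mul_inv_eq_iff_eq_mul.1
      (D.H.eq_t D.hγ h3 ((MulEquiv.orderOf_eq (MulAut.conj g) _).trans ht))

theorem structured : BSW.Structured G :=
  (⟨D.H.orderOf_t D.hγ, fun _ hx _ hy => commute_of_mem_zpowers hx hy,
    zpowers_le_cz (pow_mem (Subgroup.mem_zpowers γ) _), pow_mem (Subgroup.mem_zpowers γ) _, D.hs, D.hsH,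
    D.H.not_mem_C D.hγ D.hs D.hst, D.sup_eq, D.inf_cz_s, D.inverts, D.hTI, D.hconj⟩ :
    BSW.Hyp (γ ^ (c / 2)) s (Subgroup.zpowers γ)).structured

end Ctx

/-- The odd case. -/
theorem odd_case {p q a c : ℕ} (H : Hyp G p q a c) : BSW.Structured G := by
  obtain ⟨γ, hγ⟩ := H.exC
  obtain ⟨m, o, hc, ho, hm, -⟩ := exists_two_part H.cpos H.ceven
  obtain ⟨T, hX, hTc, hTt, hct⟩ := H.exists_T hγ hc ho hm
  obtain ⟨s, hsT, hs, hst⟩ := H.exists_s hγ hc ho hTc hTt hct
  exact (⟨H, hγ, hc, ho, hm, hX, hTc, hTt, hct, hsT, hs, hst⟩ : Ctx G p q a c γ s T m o).structured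

end CfsgLib.SpecPSLTwo
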