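import Mathlib
import Cfsg.Agent.BSW.Local
import Cfsg.Agent.Transfer.Focal

/-!
General facts for the recognition of `PSL(2, q)` by order and element orders.
-/

set_option autoImplicit false
set_option linter.style.haveILetI false

open scoped commutatorElement

namespace CfsgLib.SpecPSLTwo

open CfsgLib.BSW CfsgLib.Invol

variable {G : Type*} [Group G]

/-- An element of order dividing two in a cyclic group of even order. -/
theorem eq_half_or_one [Finite G] {γ w : G} {c : ℕ} (hγ : orderOf γ = c) (hc : Even c) (hw : w ∈ Subgroup.zpowers γ)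
    (h2 : w * w = 1) : w = 1 ∨ w = γ ^ (c / 2) := by
  obtain ⟨k, rfl⟩ := (Submonoid.mem_powers_iff _ _).1 ((mem_powers_iff_mem_zpowers).2 hw)
  have hd : c ∣ k + k := by rw [← hγ, orderOf_dvd_iff_pow_eq_one, pow_add]; exact h2
  obtain ⟨b, rfl⟩ := hc
  obtain ⟨j, hj⟩ := hd
  have hk : k = b * j := by
    have : k + k = b * j + b * j := by rw [hj]; ring
    omega
  rw [show (b + b) / 2 = b by omega]
  rcases Nat.even_or_odd j with ⟨i, hi⟩ | ⟨i, hi⟩
  · left
    subst hk hi
    rw [show b * (i + i) = (b + b) * i by ring, pow_mul, ← hγ, pow_orderOf_eq_one, one_pow]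
  · right
    subst hk hi
    rw [show b * (2 * i + 1) = (b + b) * i + b by ring, pow_add, pow_mul, ← hγ, pow_orderOf_eq_one, one_pow,
      one_mul]

theorem commute_of_mem_zpowers {γ x y : G} (hx : x ∈ Subgroup.zpowers γ) (hy : y ∈ Subgroup.zpowers γ) :
    x * y = y * x := by
  obtain ⟨i, rfl⟩ := Subgroup.mem_zpowers_iff.1 hx
  obtain ⟨j, rfl⟩ := Subgroup.mem_zpowers_iff.1 hy
  rw [← zpow_add, ← zpow_add, add_comm]

theorem zpowers_le_cz {γ y : G} (hy : y ∈ Subgroup.zpowers γ) : Subgroup.zpowers γ ≤ cz y := fun _ hx =>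
  mem_cz.2 (commute_of_mem_zpowers hx hy)

theorem conj_inv_eq {s x : G} (h : s * x * s⁻¹ = x⁻¹) : s * x⁻¹ * s⁻¹ = x := by
  rw [← conj_inv, h, inv_inv]

/-- In a subgroup of index at most two of `H`, conjugation by `H` stays inside. -/
theorem conj_mem_of_card_le [Finite G] {L H : Subgroup G} (hle : L ≤ H) (hcard : Nat.card H ∣ 2 * Nat.card L)
    {h x : G} (hh : h ∈ H) (hx : x ∈ L) : h * x * h⁻¹ ∈ L := by
  obtain ⟨k, hk⟩ := Subgroup.card_dvd_of_le hle
  have hk2 : k ∣ 2 := by
    rw [hk, mul_comm 2, mul_dvd_mul_iff_left (Nat.card_pos (α := L)).ne'] at hcard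
    exact hcard
  have hrel : L.relIndex H = k := by
    have h1 := Subgroup.card_mul_index (L.subgroupOf H)
    rw [Nat.card_congr (Subgroup.subgroupOfEquivOfLe hle).toEquiv, hk] at h1
    exact Nat.eq_of_mul_eq_mul_left Nat.card_pos h1
  haveI : (L.subgroupOf H).Normal := by
    rcases (Nat.dvd_prime Nat.prime_two).1 hk2 with rfl | rfl
    · rw [Subgroup.index_eq_one.1 hrel]; infer_instance
    · exact Subgroup.normal_of_index_eq_two hrel
  exact this.conj_mem ⟨x, hle hx⟩ hx ⟨h, hh⟩

/-- If the nontrivial elements of `H` fix only the base point of `G ⧸ N` then `|H|` divides the index less one. -/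
theorem card_dvd_index_sub_one [Finite G] (H N : Subgroup G) (hHN : H ≤ N)
    (hfree : ∀ h ∈ H, h ≠ 1 → ∀ g : G, g⁻¹ * h * g ∈ N → g ∈ N) : Nat.card H ∣ N.index - 1 := by
  classical
  set b : G ⧸ N := QuotientGroup.mk 1 with hb
  have hsm : ∀ h ∈ H, (h : G) • b = b := by
    intro h hh
    rw [hb, MulAction.Quotient.smul_mk, smul_eq_mul, mul_one]
    exact QuotientGroup.eq.2 (by simpa using hHN hh)
  letI : MulAction H {x : G ⧸ N // x ≠ b} :=
    { smul := fun h x => ⟨(h : G) • x.1, fun e => x.2 (by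
        have := congrArg (fun z => ((h : G))⁻¹ • z) e
        simpa [hsm _ (inv_mem h.2)] using this)⟩
      one_smul := fun x => Subtype.ext (one_smul G x.1)
      mul_smul := fun a c x => Subtype.ext (mul_smul (a : G) (c : G) x.1) }
  have hstab : ∀ x : {x : G ⧸ N // x ≠ b}, MulAction.stabilizer H x = ⊥ := by
    intro x
    rw [Subgroup.eq_bot_iff_forall]
    intro h hh
    by_contra h1
    apply x.2
    have he : (h : G) • x.1 = x.1 := congrArg Subtype.val (MulAction.mem_stabilizer_iff.1 hh)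
    obtain ⟨g, hg⟩ := QuotientGroup.mk_surjective x.1
    rw [← hg, MulAction.Quotient.smul_mk, smul_eq_mul] at he
    have h2 : g⁻¹ * (h : G) * g ∈ N := by
      have := QuotientGroup.eq.1 he.symm
      simpa [mul_assoc] using this
    have hgN := hfree h h.2 (fun e => h1 (Subtype.ext e)) g h2
    rw [← hg, hb]
    exact QuotientGroup.eq.2 (by simpa using inv_mem hgN)
  haveI := Fintype.ofFinite (G ⧸ N)
  haveI := Fintype.ofFinite H
  haveI : Fintype (MulAction.orbitRel.Quotient H {x : G ⧸ N // x ≠ b}) := Fintype.ofFinite _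
  have h := Nat.card_congr (MulAction.selfEquivSigmaOrbitsQuotientStabilizer H {x : G ⧸ N // x ≠ b})
  rw [Nat.card_sigma] at h
  simp only [hstab, ← Subgroup.index_eq_card, Subgroup.index_bot, Finset.sum_const, smul_eq_mul] at h
  rw [Nat.card_eq_fintype_card (α := {x : G ⧸ N // x ≠ b}), Fintype.card_subtype_compl, Fintype.card_subtype_eq,
    ← Nat.card_eq_fintype_card, ← Subgroup.index_eq_card] at h
  exact ⟨_, h.trans (mul_comm _ _)⟩

/-- If the index of a cyclic subgroup is coprime to `r` then it contains a Sylow `r`-subgroup. -/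
theorem exists_sylow_le [Finite G] {r : ℕ} [hr : Fact r.Prime] (A : Subgroup G) (h : ¬ r ∣ A.index) :
    ∃ P : Sylow r G, (P : Subgroup G) ≤ A ∧ (r ∣ Nat.card A → (P : Subgroup G) ≠ ⊥) := by
  obtain ⟨P₀⟩ : Nonempty (Sylow r A) := inferInstance
  have hc : Nat.card ((P₀ : Subgroup A).map A.subtype) = r ^ (Nat.card G).factorization r := by
    rw [Subgroup.card_map_of_injective A.subtype_injective, Sylow.card_eq_multiplicity,
      ← Subgroup.card_mul_index A, Nat.factorization_mul Nat.card_pos.ne' Subgroup.index_ne_zero_of_finite,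
      Finsupp.add_apply, Nat.factorization_eq_zero_of_not_dvd h, add_zero]
  refine ⟨Sylow.ofCard _ hc, Subgroup.map_subtype_le _, fun hd e => ?_⟩
  have he : ((P₀ : Subgroup A).map A.subtype) = ⊥ := e
  rw [Subgroup.map_eq_bot_iff_of_injective _ A.subtype_injective] at he
  exact P₀.ne_bot_of_dvd_card hd he

/-- A group that is not perfect has a normal subgroup of prime index. -/
theorem exists_normal_prime_index_of_ne [Finite G] (hne : commutator G ≠ ⊤) :
    ∃ (M : Subgroup G) (r : ℕ), M.Normal ∧ r.Prime ∧ M.index = r ∧ commutator G ≤ M := by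
  obtain ⟨M, hM, hle⟩ := (eq_top_or_exists_le_coatom (commutator G)).resolve_left hne
  haveI hMn : M.Normal := ⟨fun x hx g => by
    have h : ⁅g, x⁆ ∈ M := hle (Subgroup.commutator_mem_commutator (Subgroup.mem_top g) (Subgroup.mem_top x))
    simpa [commutatorElement_def, mul_assoc] using M.mul_mem h hx⟩
  have hq1 : Nat.card (G ⧸ M) ≠ 1 := fun h => hM.1 (Subgroup.index_eq_one.1 (by rwa [Subgroup.index]))
  obtain ⟨r, hr, hrd⟩ := Nat.exists_prime_and_dvd hq1
  haveI := Fact.mk hr
  obtain ⟨x, hx⟩ := exists_prime_orderOf_dvd_card' r hrd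
  refine ⟨M, r, hMn, hr, ?_, hle⟩
  have hlt : M < (Subgroup.zpowers x).comap (QuotientGroup.mk' M) := by
    refine lt_of_le_of_ne (QuotientGroup.le_comap_mk' M _) (fun h => ?_)
    obtain ⟨g, rfl⟩ := QuotientGroup.mk'_surjective M x
    have hg : g ∈ (Subgroup.zpowers (QuotientGroup.mk' M g)).comap (QuotientGroup.mk' M) :=
      Subgroup.mem_zpowers _
    rw [← h] at hg
    have : QuotientGroup.mk' M g = 1 := (QuotientGroup.eq_one_iff g).2 hg
    rw [this, orderOf_one] at hx
    exact hr.ne_one hx.symm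
  have htop := hM.2 _ hlt
  have : Subgroup.zpowers x = ⊤ := by
    rw [← Subgroup.map_comap_eq_self_of_surjective (QuotientGroup.mk'_surjective M) (Subgroup.zpowers x), htop,
      Subgroup.map_top_of_surjective _ (QuotientGroup.mk'_surjective M)]
  rw [← hx, ← Nat.card_zpowers, this, Subgroup.card_top]
  rfl

/-- The product of commuting elements of distinct prime orders. -/
theorem orderOf_mul_primes {g h : G} {l r : ℕ} (hl : l.Prime) (hr : r.Prime) (hne : l ≠ r) (hg : orderOf g = l)
    (hh : orderOf h = r) (hc : Commute g h) : orderOf (g * h) = l * r := by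
  rw [hc.orderOf_mul_eq_mul_orderOf_of_coprime (by rw [hg, hh]; exact (Nat.coprime_primes hl hr).2 hne), hg, hh]

theorem exists_prime_power_mem [Finite G] {y : G} (hy : y ≠ 1) :
    ∃ z ∈ Subgroup.zpowers y, (orderOf z).Prime := by
  obtain ⟨l, hl, hd⟩ := Nat.exists_prime_and_dvd (n := orderOf y) (by rwa [Ne, orderOf_eq_one_iff])
  exact ⟨y ^ (orderOf y / l), pow_mem (Subgroup.mem_zpowers y) _, by
    rw [orderOf_pow_orderOf_div (orderOf_pos y).ne' hd]; exact hl⟩

end CfsgLib.SpecPSLTwo
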