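import Cfsg.Agent.SpecPSLTwo.Basic
import Cfsg.Agent.ZJ.Fpf
import Cfsg.Agent.Hall.DPiDirect

/-!
A group with the order and element orders of `PSL(2, q)`, `q` odd: the torus of odd order and perfection.
-/

set_option autoImplicit false
set_option linter.style.haveILetI false

namespace CfsgLib.SpecPSLTwo

open CfsgLib.BSW CfsgLib.Invol
open scoped commutatorElement

universe u

variable {G : Type u} [Group G] [Finite G]

/-- The numerical and spectral hypotheses. -/
structure Hyp (G : Type u) [Group G] (p q a c : ℕ) : Prop where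
  hp : p.Prime
  hp2 : p ≠ 2
  hq : ∃ f, q = p ^ f
  hpq : p ∣ q
  aodd : ¬ 2 ∣ a
  ceven : 2 ∣ c
  ha : 3 ≤ a
  hrel : (q = 2 * a + 1 ∧ c = a + 1) ∨ (q + 1 = 2 * a ∧ c + 1 = a)
  card : Nat.card G = 2 * q * a * c
  spec : ∀ g : G, orderOf g ∣ p ∨ orderOf g ∣ a ∨ orderOf g ∣ c
  exA : ∃ g : G, orderOf g = a
  exC : ∃ g : G, orderOf g = c

namespace Hyp

variable {p q a c : ℕ} (H : Hyp G p q a c)
include H

omit [Finite G] in
theorem cpos : 0 < c := by rcases H.hrel with h | h <;> have := H.ha <;> omega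

omit [Finite G] in
theorem eq_p {r : ℕ} (hr : r.Prime) (h : r ∣ q) : r = p := by
  obtain ⟨f, hf⟩ := H.hq
  exact (Nat.prime_dvd_prime_iff_eq hr H.hp).1 (hr.dvd_of_dvd_pow (hf ▸ h))

omit [Finite G] in
theorem cop_qa : q.Coprime a := by
  rcases H.hrel with ⟨h, -⟩ | ⟨h, -⟩
  · rw [h, Nat.coprime_mul_right_add_left]; exact Nat.coprime_one_left _
  · refine Nat.coprime_of_dvd fun r hr h1 h2 => hr.ne_one ?_
    exact Nat.dvd_one.1 ((Nat.dvd_add_right h1).1 (h ▸ Dvd.dvd.mul_left h2 2))

omit [Finite G] in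
theorem cop_ac : a.Coprime c := by
  rcases H.hrel with ⟨-, h⟩ | ⟨-, h⟩
  · rw [h]; simp
  · rw [← h]; simp

omit [Finite G] in
theorem cop_qc : q.Coprime c := by
  refine Nat.coprime_of_dvd fun r hr h1 h2 => hr.ne_one ?_
  rcases H.hrel with ⟨h, hc⟩ | ⟨h, hc⟩
  · have h3 : r ∣ q + 1 := by rw [h, show 2 * a + 1 + 1 = 2 * c by omega]; exact Dvd.dvd.mul_left h2 2
    exact Nat.dvd_one.1 ((Nat.dvd_add_right h1).1 h3)
  · have h3 : r ∣ q := h1
    have h4 : r ∣ 2 * c := Dvd.dvd.mul_left h2 2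
    exact Nat.dvd_one.1 ((Nat.dvd_add_right h4).1 (by rwa [show 2 * c + 1 = q by omega]))

omit [Finite G] in
theorem qodd : ¬ 2 ∣ q := fun h => H.hp2 (H.eq_p Nat.prime_two h).symm

omit [Finite G] in
theorem not_dvd_two_qc {r : ℕ} (hr : r.Prime) (hra : r ∣ a) : ¬ r ∣ 2 * q * c := by
  intro h
  rcases hr.dvd_mul.1 h with h | h
  · rcases hr.dvd_mul.1 h with h | h
    · exact H.aodd ((Nat.prime_dvd_prime_iff_eq hr Nat.prime_two).1 h ▸ hra)
    · exact hr.ne_one (Nat.eq_one_of_dvd_coprimes H.cop_qa h hra)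
  · exact hr.ne_one (Nat.eq_one_of_dvd_coprimes H.cop_ac hra h)

omit [Finite G] in
theorem cop_a : a.Coprime (2 * q * c) :=
  Nat.coprime_of_dvd fun _ hr hra h => H.not_dvd_two_qc hr hra h

/-- Two commuting elements of distinct prime orders. -/
theorem primes {g h : G} {l r : ℕ} (hl : l.Prime) (hr : r.Prime) (hne : l ≠ r) (hg : orderOf g = l)
    (hh : orderOf h = r) (hc : h ∈ cz g) : l * r ∣ a ∨ l * r ∣ c := by
  rcases H.spec (g * h) with h1 | h1 | h1 <;>
    rw [orderOf_mul_primes hl hr hne hg hh (mem_cz.1 hc).symm] at h1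
  · have := Nat.le_of_dvd H.hp.pos h1
    rcases (Nat.dvd_prime H.hp).1 h1 with e | e
    · exact absurd (Nat.eq_one_of_mul_eq_one_right e) hl.ne_one
    · exact absurd (e ▸ Nat.not_prime_mul hl.ne_one hr.ne_one) (not_not.2 H.hp)
  · exact Or.inl h1
  · exact Or.inr h1

theorem card_eq_a {X : Subgroup G} {α : G} (hX : X = Subgroup.zpowers α) (hα : orderOf α = a) :
    Nat.card X = a := by rw [hX, Nat.card_zpowers, hα]

/-- The odd torus is the centralizer of each of its nontrivial elements. -/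
theorem cz_eq_A {α y : G} (hα : orderOf α = a) (hy : y ∈ Subgroup.zpowers α) (hy1 : y ≠ 1) :
    cz y = Subgroup.zpowers α := by
  obtain ⟨z, hz, hzp⟩ := exists_prime_power_mem hy1
  have hzA : z ∈ Subgroup.zpowers α := Subgroup.zpowers_le.2 hy hz
  have hla : orderOf z ∣ a := by
    have := Subgroup.orderOf_dvd_natCard _ hzA
    rwa [Nat.card_zpowers, hα] at this
  have hcz : Nat.card (cz z) ∣ a := by
    have hdiv : Nat.card (cz z) ∣ a * (2 * q * c) := by
      have := Subgroup.card_subgroup_dvd_card (cz z)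
      rwa [H.card, show 2 * q * a * c = a * (2 * q * c) by ring] at this
    refine Nat.Coprime.dvd_of_dvd_mul_right (Nat.coprime_of_dvd fun r hr h1 h2 => ?_) hdiv
    haveI := Fact.mk hr
    obtain ⟨w, hw⟩ := exists_prime_orderOf_dvd_card' r h1
    have hwo : orderOf (w : G) = r := by rw [Subgroup.orderOf_coe, hw]
    by_cases hne : orderOf z = r
    · exact H.not_dvd_two_qc hr (hne ▸ hla) h2
    · rcases H.primes hzp hr hne rfl hwo w.2 with h | h
      · exact H.not_dvd_two_qc hr (dvd_of_mul_left_dvd h) h2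
      · exact hzp.ne_one (Nat.eq_one_of_dvd_coprimes H.cop_ac hla (dvd_of_mul_right_dvd h))
  have hzle : cz y ≤ cz z := by
    intro x hx
    obtain ⟨k, rfl⟩ := Subgroup.mem_zpowers_iff.1 hz
    exact mem_cz.2 (Commute.zpow_right (mem_cz.1 hx) k)
  refine le_antisymm ?_ (zpowers_le_cz hy)
  refine hzle.trans (le_of_eq (Subgroup.eq_of_le_of_card_ge (zpowers_le_cz hzA) ?_).symm)
  rw [Nat.card_zpowers, hα]
  exact Nat.le_of_dvd (by have := H.ha; omega) hcz

theorem conj_cz (g y : G) : ∀ x, x ∈ cz y → g * x * g⁻¹ ∈ cz (g * y * g⁻¹) := fun _ hx => (cz_conj g).2 hx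

/-- The torus is a trivial intersection set. -/
theorem mem_normalizer {α y g : G} (hα : orderOf α = a) (hy : y ∈ Subgroup.zpowers α) (hy1 : y ≠ 1)
    (hg : g * y * g⁻¹ ∈ Subgroup.zpowers α) :
    g ∈ Subgroup.normalizer (Subgroup.zpowers α : Set G) := by
  refine Subgroup.mem_normalizer_iff.2 fun x => ?_
  rw [← H.cz_eq_A hα hy hy1]
  nth_rw 2 [H.cz_eq_A hα hy hy1]
  rw [← H.cz_eq_A hα hg (fun h => hy1 (conj_eq_one_iff.1 h))]
  exact (cz_conj g).symm

/-- The normalizer of the torus is dihedral. -/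
theorem normalizer_A {α : G} (hα : orderOf α = a) :
    Nat.card (Subgroup.normalizer (Subgroup.zpowers α : Set G)) = 2 * a ∧
      ∃ i, orderOf i = 2 ∧ i ∈ Subgroup.normalizer (Subgroup.zpowers α : Set G) ∧
        ∀ x ∈ Subgroup.zpowers α, i * x * i⁻¹ = x⁻¹ := by
  set A := Subgroup.zpowers α with hA
  set N := Subgroup.normalizer (A : Set G) with hN
  have hAN : A ≤ N := Subgroup.le_normalizer
  have ha := H.ha
  have hcA : Nat.card A = a := by rw [hA, Nat.card_zpowers, hα]
  obtain ⟨e, he⟩ := Subgroup.card_dvd_of_le hAN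
  rw [hcA] at he
  have he2 : e ∣ 2 * q * c := by
    have := Subgroup.card_subgroup_dvd_card N
    rw [H.card, he, show 2 * q * a * c = a * (2 * q * c) by ring] at this
    exact Nat.dvd_of_mul_dvd_mul_left (by omega) this
  have hcop : a.Coprime e := H.cop_a.coprime_dvd_right he2
  have he0 : 0 < e := by
    have h0 : 0 < Nat.card N := Nat.card_pos
    rw [he] at h0
    exact Nat.pos_of_mul_pos_left h0
  -- a complement acts semiregularly
  have hrel : (A.subgroupOf N).index = e := by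
    have h1 := Subgroup.card_mul_index (A.subgroupOf N)
    rw [Nat.card_congr (Subgroup.subgroupOfEquivOfLe hAN).toEquiv, hcA, he] at h1
    exact Nat.eq_of_mul_eq_mul_left (by omega) h1
  obtain ⟨E, hE⟩ := Subgroup.exists_right_complement'_of_coprime (N := A.subgroupOf N) (by
    rw [Nat.card_congr (Subgroup.subgroupOfEquivOfLe hAN).toEquiv, hcA, hrel]; exact hcop)
  have hEc : Nat.card (E.map N.subtype) = e := by
    rw [Subgroup.card_map_of_injective N.subtype_injective, ← hE.symm.index_eq_card, hrel]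
  have hed : e ∣ a - 1 := by
    have h1 := card_dvd_of_semiregular (E.map N.subtype) A
      (fun w hw x hx => (Subgroup.mem_normalizer_iff.1 (Subgroup.map_subtype_le E hw) x).1 hx)
      (fun w hw hw1 x hx hx1 hfix => by
        obtain ⟨v, hv, rfl⟩ := hw
        have hcm : (v : G) ∈ cz x := mem_cz.2 (mul_inv_eq_iff_eq_mul.1 hfix)
        rw [H.cz_eq_A hα hx hx1] at hcm
        exact hw1 (congrArg (fun z : N => (z : G)) (Subgroup.mem_bot.1 (hE.disjoint.le_bot ⟨hcm, hv⟩))))
    rwa [hEc, hcA] at h1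
  -- counting
  have hidx : a ∣ N.index - 1 := by
    refine hcA ▸ card_dvd_index_sub_one A N hAN fun h hh h1 g hg => ?_
    obtain ⟨z, hz, hzp⟩ := exists_prime_power_mem h1
    have hzA : z ∈ A := Subgroup.zpowers_le.2 hh hz
    have hzN : g⁻¹ * z * g ∈ N := by
      obtain ⟨k, rfl⟩ := Subgroup.mem_zpowers_iff.1 hz
      have := zpow_mem hg k
      rwa [show (g⁻¹ * h * g) ^ k = g⁻¹ * h ^ k * g by
        have := conj_zpow (a := g⁻¹) (b := h) (i := k)
        simpa using this] at this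
    have hla : orderOf z ∣ a := hcA ▸ Subgroup.orderOf_dvd_natCard _ hzA
    have hzA' : g⁻¹ * z * g ∈ A := by
      haveI : (A.subgroupOf N).Normal := Subgroup.normal_subgroupOf_of_le_normalizer le_rfl
      have h2 : orderOf (QuotientGroup.mk' (A.subgroupOf N) ⟨_, hzN⟩) = 1 := by
        refine Nat.eq_one_of_dvd_coprimes (hcop.coprime_dvd_left hla) ?_ ?_
        · refine (orderOf_map_dvd _ _).trans (dvd_of_eq ?_)
          rw [Subgroup.orderOf_mk, show g⁻¹ * z * g = MulAut.conj g⁻¹ z by simp [MulAut.conj_apply],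
            MulEquiv.orderOf_eq]
        · rw [← hrel]; exact orderOf_dvd_natCard _
      exact (QuotientGroup.eq_one_iff (N := A.subgroupOf N) ⟨_, hzN⟩).1 (orderOf_eq_one_iff.1 h2)
    have := H.mem_normalizer hα hzA (g := g⁻¹) (fun e => hzp.ne_one (by rw [e, orderOf_one]))
      (by rwa [inv_inv])
    exact inv_mem_iff.1 this
  have hidx2 : e * N.index = 2 * q * c := by
    have h1 := Subgroup.card_mul_index N
    rw [H.card, he] at h1
    exact Nat.eq_of_mul_eq_mul_left (show 0 < a by omega) (by rw [← mul_assoc, h1]; ring)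
  have he2' : e = 2 := by
    obtain ⟨k, hk⟩ := hidx
    have h1 : N.index = a * k + 1 := by
      have := Nat.pos_of_ne_zero N.index_ne_zero_of_finite
      omega
    have h2 : ((e : ℕ) : ZMod a) = 2 := by
      have := congrArg (fun n : ℕ => (n : ZMod a)) hidx2
      rw [h1] at this
      push_cast at this
      rw [ZMod.natCast_self, zero_mul, zero_add, mul_one] at this
      rw [this]
      rcases H.hrel with ⟨hq, hc⟩ | ⟨hq, hc⟩
      · rw [hq, hc]; push_cast; rw [ZMod.natCast_self]; ring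
      · have hq' : (q : ZMod a) + 1 = 0 := by
          rw [← Nat.cast_one, ← Nat.cast_add, hq]; push_cast; rw [ZMod.natCast_self, mul_zero]
        have hc' : (c : ZMod a) + 1 = 0 := by
          rw [← Nat.cast_one, ← Nat.cast_add, hc, ZMod.natCast_self]
        rw [eq_neg_of_add_eq_zero_left hq', eq_neg_of_add_eq_zero_left hc']; ring
    have hlt : e < a := by
      have := Nat.le_of_dvd (by omega) hed
      omega
    have h3 : ((e : ℕ) : ZMod a) = ((2 : ℕ) : ZMod a) := by rw [h2]; norm_num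
    have h4 := congrArg ZMod.val h3
    rwa [ZMod.val_natCast, ZMod.val_natCast, Nat.mod_eq_of_lt hlt, Nat.mod_eq_of_lt (by omega)] at h4
  subst he2'
  refine ⟨by rw [he, mul_comm], ?_⟩
  haveI : Fact (Nat.Prime 2) := ⟨Nat.prime_two⟩
  obtain ⟨i, hi⟩ := exists_prime_orderOf_dvd_card' (G := N) 2 (by rw [he]; exact dvd_mul_left 2 a)
  have hi' : orderOf (i : G) = 2 := by rw [Subgroup.orderOf_coe, hi]
  refine ⟨i, hi', i.2, fun x hx => ?_⟩
  have hix : (i : G) * x * (i : G)⁻¹ ∈ A := (Subgroup.mem_normalizer_iff.1 i.2 x).1 hx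
  by_contra hne
  set w := x * ((i : G) * x * (i : G)⁻¹) with hw
  have hwA : w ∈ A := mul_mem hx hix
  have hfix : (i : G) * w * (i : G)⁻¹ = w := by
    rw [hw]
    calc (i : G) * (x * ((i : G) * x * (i : G)⁻¹)) * (i : G)⁻¹
        = (i : G) * x * (i : G)⁻¹ * ((i * i) * x * ((i : G) * i)⁻¹) := by group
      _ = _ := by rw [mul_self_of_orderOf hi', one_mul, inv_one, mul_one, commute_of_mem_zpowers hix hx]
  have hw1 : w ≠ 1 := fun e => hne (eq_inv_of_mul_eq_one_right e)
  have hmem : (i : G) ∈ A := by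
    rw [hA, ← H.cz_eq_A hα hwA hw1]
    exact mem_cz.2 (mul_inv_eq_iff_eq_mul.1 hfix)
  exact H.aodd (hi' ▸ hcA ▸ Subgroup.orderOf_dvd_natCard _ hmem)

theorem exists_sylow_A {α : G} (hα : orderOf α = a) {r : ℕ} [Fact r.Prime] (hra : r ∣ a) :
    ∃ P : Sylow r G, (P : Subgroup G) ≤ Subgroup.zpowers α ∧ (P : Subgroup G) ≠ ⊥ := by
  obtain ⟨P, hP, hne⟩ := exists_sylow_le (r := r) (Subgroup.zpowers α) (fun h => by
    refine H.not_dvd_two_qc Fact.out hra (h.trans (dvd_of_eq ?_))
    have h1 := Subgroup.card_mul_index (Subgroup.zpowers α)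
    rw [Nat.card_zpowers, hα, H.card] at h1
    exact Nat.eq_of_mul_eq_mul_left (show 0 < a by have := H.ha; omega) (h1.trans (by ring)))
  exact ⟨P, hP, hne (by rwa [Nat.card_zpowers, hα])⟩

theorem normalizer_sylow_le {α : G} (hα : orderOf α = a) {R : Subgroup G} (hR : R ≤ Subgroup.zpowers α)
    (hne : R ≠ ⊥) : Subgroup.normalizer (R : Set G) ≤ Subgroup.normalizer (Subgroup.zpowers α : Set G) := by
  intro g hg
  obtain ⟨⟨y, hy⟩, hy1⟩ := (Subgroup.ne_bot_iff_exists_ne_one).1 hne
  exact H.mem_normalizer hα (hR hy) (fun e => hy1 (Subtype.ext e))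
    (hR ((Subgroup.mem_normalizer_iff.1 hg y).1 hy))

omit [Finite G] in
theorem ea {y : G} (hy : orderOf y = 2 * p) : False := by
  have h2 : (2 : ℕ) ≠ p := H.hp2.symm
  rcases H.spec y with h | h | h <;> rw [hy] at h
  · exact absurd ((Nat.prime_dvd_prime_iff_eq Nat.prime_two H.hp).1 (dvd_of_mul_right_dvd h)) h2
  · exact H.aodd (dvd_of_mul_right_dvd h)
  · exact H.hp.ne_one (Nat.eq_one_of_dvd_coprimes H.cop_qc H.hpq (dvd_of_mul_left_dvd h))

/-- The kernels of the transfers in a subgroup of index two avoiding the involution. -/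
theorem no_index_two {α : G} (hα : orderOf α = a) (M : Subgroup G) [M.Normal] (hM : M.index = 2)
    (hA : Subgroup.zpowers α ≤ M) : False := by
  classical
  obtain ⟨hNc, i, hi, hiN, hinv⟩ := H.normalizer_A hα
  set A := Subgroup.zpowers α with hAdef
  set N := Subgroup.normalizer (A : Set G) with hN
  have ha := H.ha
  have hcA : Nat.card A = a := by rw [hAdef, Nat.card_zpowers, hα]
  -- `i ∉ M`, by the Frattini argument
  obtain ⟨l, hl, hla⟩ := Nat.exists_prime_and_dvd (n := a) (by omega)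
  haveI := Fact.mk hl
  obtain ⟨P, hP, hPne⟩ := H.exists_sylow_A hα hla
  have hsup : N ⊔ M = ⊤ := by
    rw [eq_top_iff, ← Sylow.normalizer_sup_eq_top' P (hP.trans hA)]
    exact sup_le_sup_right (H.normalizer_sylow_le hα hP hPne) M
  have hAi : N ≤ A ⊔ Subgroup.zpowers i := by
    refine le_of_eq (Subgroup.eq_of_le_of_card_ge (sup_le Subgroup.le_normalizer (Subgroup.zpowers_le.2 hiN)) ?_).symm
    rw [hNc]
    have hlt : A < A ⊔ Subgroup.zpowers i := lt_of_le_not_ge le_sup_left fun h =>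
      H.aodd (hi ▸ hcA ▸ Subgroup.orderOf_dvd_natCard _ (h (Subgroup.mem_sup_right (Subgroup.mem_zpowers i))))
    obtain ⟨k, hk⟩ := Subgroup.card_dvd_of_le hlt.le
    have := Set.ncard_lt_ncard (SetLike.coe_ssubset_coe.2 hlt) (Set.toFinite _)
    rw [← Nat.card_coe_set_eq, ← Nat.card_coe_set_eq] at this
    simp only [SetLike.coe_sort_coe] at this
    rw [hk, hcA] at this
    have : 2 ≤ k := by by_contra hk2; interval_cases k <;> omega
    rw [hk, hcA]; nlinarith
  have hiM : i ∉ M := by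
    intro h
    have : N ⊔ M ≤ M := sup_le (hAi.trans (sup_le hA (Subgroup.zpowers_le.2 h))) le_rfl
    rw [hsup, top_le_iff] at this
    rw [this, Subgroup.index_top] at hM; omega
  have hNM : ∀ g ∈ N, g ∈ M → g ∈ A := by
    intro g hg hgM
    have h := hAi hg
    have hle : Subgroup.zpowers i ≤ N := Subgroup.zpowers_le.2 hiN
    rw [← SetLike.mem_coe, Subgroup.coe_mul_of_right_le_normalizer_left _ _ hle] at h
    obtain ⟨x, hx, y, hy, rfl⟩ := h
    have hyM : y ∈ M := by simpa using mul_mem (inv_mem (hA hx)) hgM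
    rcases eq_half_or_one hi even_two hy (by
      obtain ⟨k, rfl⟩ := Subgroup.mem_zpowers_iff.1 hy
      rw [← (Commute.refl i).mul_zpow, mul_self_of_orderOf hi, one_zpow]) with rfl | rfl
    · simpa using hx
    · rw [show 2 / 2 = 1 from rfl, pow_one] at hyM; exact absurd hyM hiM
  -- normal complements inside `M`
  have hK : ∀ r : ℕ, r ∈ a.primeFactors → ∃ K : Subgroup M, K.Normal ∧ ¬ r ∣ Nat.card K ∧
      ∀ x : M, (orderOf x).Coprime a → x ∈ K := by
    intro r hr
    haveI := Fact.mk (Nat.prime_of_mem_primeFactors hr)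
    obtain ⟨R, hR, hRne⟩ := H.exists_sylow_A hα (Nat.dvd_of_mem_primeFactors hr)
    have hRM : (R : Subgroup G) ≤ M := hR.trans hA
    obtain ⟨S, K, hKn, hKS⟩ := CfsgLib.Transfer.burnside_normal_complement (R.subtype hRM) (by
      intro m hm
      rw [Subgroup.mem_centralizer_iff]
      intro y hy
      replace hy : (y : G) ∈ (R : Subgroup G) := hy
      have hmN : (m : G) ∈ Subgroup.normalizer ((R : Subgroup G) : Set G) := by
        refine Subgroup.mem_normalizer_iff.2 fun z => ?_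
        by_cases hz : z ∈ M
        · have := Subgroup.mem_normalizer_iff.1 hm ⟨z, hz⟩
          simpa [Subgroup.mem_subgroupOf] using this
        · refine iff_of_false (fun h => hz (hRM h)) (fun h => hz ?_)
          have := mul_mem (mul_mem (inv_mem m.2) (hRM h)) m.2
          simpa [mul_assoc] using this
      exact Subtype.ext (commute_of_mem_zpowers (hR hy)
        (hNM _ (H.normalizer_sylow_le hα hR hRne hmN) m.2)))
    have hcard : Nat.card K = (S : Subgroup M).index := by rw [hKS.index_eq_card]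
    refine ⟨K, hKn, fun h => S.not_dvd_index (hcard ▸ h), fun x hx => ?_⟩
    rw [← QuotientGroup.eq_one_iff, ← orderOf_eq_one_iff]
    obtain ⟨j, hj⟩ := S.2.exists_card_eq
    refine Nat.eq_one_of_dvd_coprimes
      ((hx.coprime_dvd_right (Nat.dvd_of_mem_primeFactors hr)).pow_right j)
      (orderOf_map_dvd (QuotientGroup.mk' K) x) ?_
    rw [← hj, ← hKS.symm.index_eq_card]
    exact orderOf_dvd_natCard (x : M ⧸ K)
  choose K hKn hKd hKm using hK
  set J : Subgroup M := ⨅ r : a.primeFactors, K r.1 r.2 with hJ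
  haveI : J.Normal := Subgroup.normal_iInf_normal fun r => hKn r.1 r.2
  have hJA : ∀ x : M, x ∈ J → (x : G) ∈ A → x = 1 := by
    intro x hxJ hxA
    by_contra hx1
    obtain ⟨z, hz, hzp⟩ := exists_prime_power_mem hx1
    have hzA : (z : G) ∈ A := by
      obtain ⟨k, rfl⟩ := Subgroup.mem_zpowers_iff.1 hz
      rw [Subgroup.coe_zpow]; exact zpow_mem hxA k
    have hra : orderOf z ∈ a.primeFactors := Nat.mem_primeFactors.2
      ⟨hzp, by rw [← Subgroup.orderOf_coe, ← hcA]; exact Subgroup.orderOf_dvd_natCard _ hzA, by omega⟩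
    have hzK : z ∈ K _ hra := (Subgroup.zpowers_le.2 ((Subgroup.mem_iInf.1 hxJ) ⟨_, hra⟩)) hz
    exact hKd _ hra (Subgroup.orderOf_dvd_natCard _ hzK)
  -- an element of prime order of the torus acts without fixed points
  obtain ⟨P', hP'⟩ : ∃ z : M, (z : G) ∈ A ∧ orderOf z = l := by
    obtain ⟨z, hz⟩ := exists_prime_orderOf_dvd_card' (G := A) l (by rw [hcA]; exact hla)
    exact ⟨⟨z, hA z.2⟩, z.2, by rw [Subgroup.orderOf_mk, Subgroup.orderOf_coe, hz]⟩
  haveI : Group.IsNilpotent J := by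
    refine CfsgLib.ZJ.isNilpotent_of_fixedPointFree (p := l) hl (α := MulAut.conjNormal P') ?_ ?_
    · intro x hx
      have h : (P' : M) * (x : M) * (P' : M)⁻¹ = x := by
        have := congrArg Subtype.val hx; simpa using this
      have hmem : ((x : M) : G) ∈ cz (P' : G) :=
        mem_cz.2 (congrArg (fun z : M => (z : G)) (mul_inv_eq_iff_eq_mul.1 h)).symm
      rw [H.cz_eq_A hα hP'.1 (fun e => by
        have := hP'.2; rw [show P' = 1 from Subtype.ext e, orderOf_one] at this; exact hl.ne_one this.symm)] at hmem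
      exact Subtype.ext (hJA _ x.2 hmem)
    · rw [← map_pow, ← hP'.2, pow_orderOf_eq_one, map_one]
  -- an element of order `p` and an involution
  have hMc : Nat.card M = q * a * c := by
    have := Subgroup.card_mul_index M
    rw [hM, H.card] at this; nlinarith
  haveI := Fact.mk H.hp
  haveI : Fact (Nat.Prime 2) := ⟨Nat.prime_two⟩
  obtain ⟨y, hy⟩ := exists_prime_orderOf_dvd_card' (G := M) p (by
    rw [hMc]; exact (H.hpq.mul_right a).mul_right c)
  obtain ⟨w, hw⟩ := exists_prime_orderOf_dvd_card' (G := M) 2 (by rw [hMc]; exact H.ceven.mul_left _)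
  have hyJ : y ∈ J := Subgroup.mem_iInf.2 fun r => hKm r.1 r.2 y
    (by rw [hy]; exact H.cop_qa.coprime_dvd_left H.hpq)
  have hwJ : w ∈ J := Subgroup.mem_iInf.2 fun r => hKm r.1 r.2 w
    (by rw [hw]; exact (Nat.Prime.coprime_iff_not_dvd Nat.prime_two).2 H.aodd)
  have hcom : (⟨w, hwJ⟩ : J) * ⟨y, hyJ⟩ = ⟨y, hyJ⟩ * ⟨w, hwJ⟩ :=
    Hall.DPi.commute_of_coprime_orders (p := 2) (i := 1) (by rw [Subgroup.orderOf_mk, hw, pow_one])
      (by rw [Subgroup.orderOf_mk, hy]; exact (Nat.coprime_primes H.hp Nat.prime_two).2 H.hp2)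
  refine H.ea (y := (w : G) * (y : G)) ?_
  exact orderOf_mul_primes Nat.prime_two H.hp H.hp2.symm (by rw [Subgroup.orderOf_coe, hw])
    (by rw [Subgroup.orderOf_coe, hy]) (congrArg (fun z : J => ((z : M) : G)) hcom)

/-- The group is perfect. -/
theorem perfect : commutator G = ⊤ := by
  by_contra hne
  obtain ⟨M, l, hMn, hl, hM, hle⟩ := exists_normal_prime_index_of_ne hne
  haveI := hMn
  obtain ⟨α, hα⟩ := H.exA
  obtain ⟨hNc, i, hi, hiN, hinv⟩ := H.normalizer_A hα
  have ha := H.ha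
  -- the torus lies in `M`
  have hα2 : α ^ 2 ∈ M := by
    refine hle ?_
    have h := Subgroup.commutator_mem_commutator (Subgroup.mem_top α) (Subgroup.mem_top i) (G := G)
    rw [← commutator_def, commutatorElement_def, show α * i * α⁻¹ * i⁻¹ = α * (i * α⁻¹ * i⁻¹) by group,
      conj_inv_eq (hinv α (Subgroup.mem_zpowers α))] at h
    rwa [pow_two]
  have hA : Subgroup.zpowers α ≤ M := by
    rw [Subgroup.zpowers_le]
    obtain ⟨k, hk⟩ := Nat.not_even_iff_odd.1 (fun h => H.aodd h.two_dvd)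
    have : α = (α ^ 2) ^ (k + 1) := by
      rw [← pow_mul, show 2 * (k + 1) = a + 1 by omega, pow_succ, ← hα, pow_orderOf_eq_one, one_mul]
    rw [this]; exact pow_mem hα2 _
  -- Frattini
  obtain ⟨r, hr, hra⟩ := Nat.exists_prime_and_dvd (n := a) (by omega)
  haveI := Fact.mk hr
  obtain ⟨P, hP, hPne⟩ := H.exists_sylow_A hα hra
  have hsup : Subgroup.normalizer (Subgroup.zpowers α : Set G) ⊔ M = ⊤ := by
    rw [eq_top_iff, ← Sylow.normalizer_sup_eq_top' P (hP.trans hA)]
    exact sup_le_sup_right (H.normalizer_sylow_le hα hP hPne) M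
  set N := Subgroup.normalizer (Subgroup.zpowers α : Set G) with hN
  have hd : l ∣ 2 := by
    have h1 : M.relIndex N = M.index := by rw [← Subgroup.relIndex_sup_right, hsup, Subgroup.relIndex_top_right]
    have h2 : M.relIndex N ∣ (Subgroup.zpowers α).relIndex N := Subgroup.relIndex_dvd_of_le_left _ hA
    rw [h1, hM] at h2
    refine h2.trans (dvd_of_eq ?_)
    have h3 := Subgroup.card_mul_index ((Subgroup.zpowers α).subgroupOf N)
    rw [Nat.card_congr (Subgroup.subgroupOfEquivOfLe Subgroup.le_normalizer).toEquiv, Nat.card_zpowers, hα,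
      hNc] at h3
    exact Nat.eq_of_mul_eq_mul_left (show 0 < a by omega) (h3.trans (mul_comm 2 a))
  exact H.no_index_two hα M (hM.trans ((Nat.prime_dvd_prime_iff_eq hl Nat.prime_two).1 hd)) hA

end Hyp

end CfsgLib.SpecPSLTwo
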