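import Cfsg.Agent.SpecPSLTwo.Cent
import Cfsg.Agent.BSW.Main

/-!
A group with the order and element orders of `PSL(2, q)`, `q` odd: the centralizer of an involution.
-/

set_option autoImplicit false
set_option linter.style.haveILetI false

namespace CfsgLib.SpecPSLTwo

open CfsgLib.BSW CfsgLib.Invol
open scoped commutatorElement Pointwise

universe u

variable {G : Type u} [Group G] [Finite G]

/-- The subgroup of prime order in a cyclic group is unique. -/
theorem zpowers_eq_of_prime {γ x y : G} {c r : ℕ} (hγ : orderOf γ = c) (hr : r.Prime)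
    (hx : x ∈ Subgroup.zpowers γ) (hy : y ∈ Subgroup.zpowers γ) (hxr : orderOf x = r) (hyr : orderOf y = r) :
    Subgroup.zpowers x = Subgroup.zpowers y := by
  have hrc : r ∣ c := by
    rw [← hγ, ← hxr, ← Nat.card_zpowers γ]; exact Subgroup.orderOf_dvd_natCard _ hx
  have hc : 0 < c := hγ ▸ orderOf_pos γ
  have key : ∀ z ∈ Subgroup.zpowers γ, orderOf z = r → Subgroup.zpowers z = Subgroup.zpowers (γ ^ (c / r)) := by
    intro z hz hzr
    obtain ⟨k, rfl⟩ := (Submonoid.mem_powers_iff _ _).1 ((mem_powers_iff_mem_zpowers).2 hz)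
    refine Subgroup.eq_of_le_of_card_ge (Subgroup.zpowers_le.2 ?_) (le_of_eq ?_)
    · have h1 : c ∣ k * r := by
        rw [← hγ, orderOf_dvd_iff_pow_eq_one, pow_mul, ← hzr, pow_orderOf_eq_one]
      obtain ⟨b, hb⟩ := hrc
      rw [hb, mul_comm k, mul_dvd_mul_iff_left hr.ne_zero] at h1
      obtain ⟨j, rfl⟩ := h1
      rw [show c / r = b by rw [hb, Nat.mul_div_cancel_left _ hr.pos], pow_mul]
      exact pow_mem (Subgroup.mem_zpowers _) _
    · rw [Nat.card_zpowers, Nat.card_zpowers, hzr, ← hγ, orderOf_pow_orderOf_div (hγ ▸ hc.ne') (hγ ▸ hrc)]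
  rw [key x hx hxr, key y hy hyr]

theorem exists_two_part {c : ℕ} (hc : 0 < c) (h2 : 2 ∣ c) :
    ∃ m o, c = 2 ^ m * o ∧ ¬ 2 ∣ o ∧ 0 < m ∧ 0 < o := by
  obtain ⟨m, o, ho, h⟩ := Nat.exists_eq_pow_mul_and_not_dvd hc.ne' 2 (by norm_num)
  refine ⟨m, o, h, ho, Nat.pos_of_ne_zero fun hm => ho ?_, Nat.pos_of_ne_zero fun h0 => ho (h0 ▸ dvd_zero 2)⟩
  rwa [h, hm, pow_zero, one_mul] at h2

namespace Hyp

variable {p q a c : ℕ} (H : Hyp G p q a c)
include H

omit [Finite G] in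
theorem qa_eq : ∃ k, q * a = c * k + 1 ∧ ¬ 2 ∣ k := by
  have ha := H.ha
  obtain ⟨b, rfl⟩ : ∃ b, a = b + 1 := ⟨a - 1, by omega⟩
  rcases H.hrel with ⟨h, hc⟩ | ⟨h, hc⟩
  · exact ⟨2 * b + 1, by rw [h, hc]; ring, by omega⟩
  · obtain rfl : c = b := by omega
    obtain rfl : q = 2 * c + 1 := by omega
    exact ⟨2 * c + 3, by ring, by omega⟩

theorem orderOf_t {γ : G} (hγ : orderOf γ = c) : orderOf (γ ^ (c / 2)) = 2 := by
  rw [← hγ]; exact orderOf_pow_orderOf_div (orderOf_pos γ).ne' (hγ ▸ H.ceven)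

theorem eq_t {γ w : G} (hγ : orderOf γ = c) (hw : w ∈ Subgroup.zpowers γ) (h2 : orderOf w = 2) :
    w = γ ^ (c / 2) :=
  (eq_half_or_one hγ (even_iff_two_dvd.2 H.ceven) hw (mul_self_of_orderOf h2)).resolve_left (ne_one_of_orderOf h2)

/-- Primes in the centralizer of an element of prime order of the even torus. -/
theorem card_cz_dvd {γ z : G} (hγ : orderOf γ = c) (hz : z ∈ Subgroup.zpowers γ) (hzp : (orderOf z).Prime) :
    Nat.card (cz z) ∣ 2 * c := by
  have hlc : orderOf z ∣ c := hγ ▸ (Nat.card_zpowers γ ▸ Subgroup.orderOf_dvd_natCard _ hz)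
  have hdiv : Nat.card (cz z) ∣ (2 * c) * (q * a) := by
    have := Subgroup.card_subgroup_dvd_card (cz z)
    rwa [H.card, show 2 * q * a * c = (2 * c) * (q * a) by ring] at this
  refine Nat.Coprime.dvd_of_dvd_mul_right (Nat.coprime_of_dvd fun r hr h1 h2 => ?_) hdiv
  haveI := Fact.mk hr
  obtain ⟨w, hw⟩ := exists_prime_orderOf_dvd_card' r h1
  have hwo : orderOf (w : G) = r := by rw [Subgroup.orderOf_coe, hw]
  have hrc : r ∣ c := by
    by_cases hne : orderOf z = r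
    · exact hne ▸ hlc
    · rcases H.primes hzp hr hne rfl hwo w.2 with h | h
      · exact absurd (Nat.eq_one_of_dvd_coprimes H.cop_ac (dvd_of_mul_right_dvd h) hlc) hzp.ne_one
      · exact dvd_of_mul_left_dvd h
  exact hr.ne_one (Nat.eq_one_of_dvd_coprimes (H.cop_qc.symm.mul_right H.cop_ac.symm) hrc h2)

theorem index_C {γ : G} (hγ : orderOf γ = c) : (Subgroup.zpowers γ).index = 2 * (q * a) := by
  have h1 := Subgroup.card_mul_index (Subgroup.zpowers γ)
  rw [Nat.card_zpowers, hγ, H.card] at h1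
  exact Nat.eq_of_mul_eq_mul_left H.cpos (h1.trans (by ring))

/-- A Sylow 2-subgroup centralizing the involution of the even torus. -/
theorem exists_T {γ : G} (hγ : orderOf γ = c) {m o : ℕ} (hc : c = 2 ^ m * o) (ho : ¬ 2 ∣ o) (hm : 0 < m) :
    ∃ T : Sylow 2 G, Subgroup.zpowers (γ ^ o) ≤ (T : Subgroup G) ∧ Nat.card (T : Subgroup G) = 2 ^ (m + 1) ∧
      (T : Subgroup G) ≤ cz (γ ^ (c / 2)) ∧ Nat.card (cz (γ ^ (c / 2))) = 2 * c := by
  haveI : Fact (Nat.Prime 2) := ⟨Nat.prime_two⟩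
  have hX : Nat.card (Subgroup.zpowers (γ ^ o)) = 2 ^ m := by
    rw [Nat.card_zpowers, orderOf_pow, hγ, Nat.gcd_eq_right (hc ▸ dvd_mul_left o _), hc,
      Nat.mul_div_cancel _ (Nat.pos_of_ne_zero fun h => ho (by rw [h]; exact dvd_zero 2))]
  obtain ⟨T, hT⟩ := (IsPGroup.of_card hX).exists_le_sylow
  have hTc : Nat.card (T : Subgroup G) = 2 ^ (m + 1) := by
    have hodd : ¬ 2 ∣ q * a * o := fun h => by
      rcases Nat.prime_two.dvd_mul.1 h with h | h
      · rcases Nat.prime_two.dvd_mul.1 h with h | h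
        · exact H.qodd h
        · exact H.aodd h
      · exact ho h
    rw [T.card_eq_multiplicity, H.card, hc, show 2 * q * a * (2 ^ m * o) = 2 ^ (m + 1) * (q * a * o) by ring,
      Nat.factorization_mul (pow_ne_zero _ two_ne_zero) (fun h => hodd (by rw [h]; exact dvd_zero 2)), Finsupp.add_apply,
      Nat.factorization_eq_zero_of_not_dvd hodd, add_zero, Nat.factorization_pow, Finsupp.smul_apply,
      Nat.prime_two.factorization_self, smul_eq_mul, mul_one]
  have ht := H.orderOf_t hγ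
  have htX : γ ^ (c / 2) ∈ Subgroup.zpowers (γ ^ o) := by
    obtain ⟨k, rfl⟩ : ∃ k, m = k + 1 := ⟨m - 1, by omega⟩
    rw [hc, show 2 ^ (k + 1) * o / 2 = o * 2 ^ k by rw [pow_succ']; rw [mul_assoc, Nat.mul_div_cancel_left _ two_pos, mul_comm],
      pow_mul]
    exact pow_mem (Subgroup.mem_zpowers _) _
  have hTt : (T : Subgroup G) ≤ cz (γ ^ (c / 2)) := by
    intro g hg
    have hmem := conj_mem_of_card_le hT (dvd_of_eq (by rw [hTc, hX, pow_succ']) :
      Nat.card (T : Subgroup G) ∣ 2 * Nat.card (Subgroup.zpowers (γ ^ o))) hg htX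
    have := H.eq_t hγ ((Subgroup.zpowers_le.2 (pow_mem (Subgroup.mem_zpowers γ) o)) hmem)
      ((MulEquiv.orderOf_eq (MulAut.conj g) _).trans ht)
    exact mem_cz.2 (mul_inv_eq_iff_eq_mul.1 this)
  refine ⟨T, hT, hTc, hTt, Nat.dvd_antisymm (H.card_cz_dvd hγ (pow_mem (Subgroup.mem_zpowers γ) _)
    (by rw [ht]; exact Nat.prime_two)) ?_⟩
  have h1 : c ∣ Nat.card (cz (γ ^ (c / 2))) := by
    have := Subgroup.card_dvd_of_le (zpowers_le_cz (pow_mem (Subgroup.mem_zpowers γ) (c / 2)))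
    rwa [Nat.card_zpowers, hγ] at this
  have h2 := Subgroup.card_dvd_of_le hTt
  rw [hTc] at h2
  have h3 : 2 ^ (m + 1) * o = 2 * c := by rw [hc]; ring
  rw [← h3]
  exact Nat.Coprime.mul_dvd_of_dvd_of_dvd
    (Nat.Coprime.pow_left _ ((Nat.Prime.coprime_iff_not_dvd Nat.prime_two).2 ho)) h2
    ((hc ▸ dvd_mul_left o _).trans h1)

/-- A second involution. -/
theorem exists_s {γ : G} (hγ : orderOf γ = c) {m o : ℕ} (hc : c = 2 ^ m * o) (ho : ¬ 2 ∣ o)
    {T : Sylow 2 G} (hTc : Nat.card (T : Subgroup G) = 2 ^ (m + 1)) (hTt : (T : Subgroup G) ≤ cz (γ ^ (c / 2)))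
    (hct : Nat.card (cz (γ ^ (c / 2))) = 2 * c) :
    ∃ s ∈ (T : Subgroup G), orderOf s = 2 ∧ s ≠ γ ^ (c / 2) := by
  haveI : Fact (Nat.Prime 2) := ⟨Nat.prime_two⟩
  by_contra hno
  push Not at hno
  set t := γ ^ (c / 2) with htdef
  have ht : orderOf t = 2 := H.orderOf_t hγ
  have hfix : ∀ w ∈ cz t, orderOf w = 2 → w = t := by
    intro w hw hw2
    obtain ⟨Q, hQ⟩ := (IsPGroup.of_card (n := 1) (show Nat.card (Subgroup.zpowers (⟨w, hw⟩ : cz t)) = 2 ^ 1 by
      rw [Nat.card_zpowers, Subgroup.orderOf_mk, hw2, pow_one])).exists_le_sylow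
    obtain ⟨k, hk⟩ := MulAction.exists_smul_eq (cz t) (T.subtype hTt) Q
    have hwQ : (⟨w, hw⟩ : cz t) ∈ (Q : Subgroup (cz t)) := hQ (Subgroup.mem_zpowers _)
    rw [← hk, Sylow.smul_def] at hwQ
    have h2 := Subgroup.mem_pointwise_smul_iff_inv_smul_mem.1 hwQ
    have h3 : (k : G)⁻¹ * w * (k : G) ∈ (T : Subgroup G) := by
      simpa [Sylow.coe_subtype, Subgroup.mem_subgroupOf] using h2
    have h4 := hno _ h3 (by
      rw [show (k : G)⁻¹ * w * (k : G) = MulAut.conj (k : G)⁻¹ w by simp [MulAut.conj_apply], MulEquiv.orderOf_eq, hw2])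
    calc w = (k : G) * ((k : G)⁻¹ * w * (k : G)) * (k : G)⁻¹ := by group
      _ = t := by rw [h4, mul_inv_eq_iff_eq_mul]; exact mem_cz.1 k.2
  have hd : 2 ^ (m + 1) ∣ (cz t).index - 1 := by
    refine hTc ▸ card_dvd_index_sub_one (T : Subgroup G) (cz t) hTt fun h hh h1 g hg => ?_
    obtain ⟨z, hz, hzp⟩ := exists_prime_power_mem h1
    have hzT := Subgroup.zpowers_le.2 hh hz
    have hz2 : orderOf z = 2 := by
      have h5 := Subgroup.orderOf_dvd_natCard _ hzT
      rw [hTc] at h5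
      exact (Nat.prime_dvd_prime_iff_eq hzp Nat.prime_two).1 (hzp.dvd_of_dvd_pow h5)
    obtain rfl := hno z hzT hz2
    have hgz : g⁻¹ * t * g ∈ cz t := by
      obtain ⟨k, hk⟩ := Subgroup.mem_zpowers_iff.1 hz
      have := zpow_mem hg k
      rw [show (g⁻¹ * h * g) ^ k = g⁻¹ * h ^ k * g by
        have := conj_zpow (a := g⁻¹) (b := h) (i := k)
        simpa using this, hk] at this
      exact this
    have := hfix _ hgz (by
      rw [show g⁻¹ * t * g = MulAut.conj g⁻¹ t by simp [MulAut.conj_apply], MulEquiv.orderOf_eq, ht])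
    refine mem_cz.2 ?_
    calc g * t = g * (g⁻¹ * t * g) := by rw [this]
      _ = t * g := by group
  have hidx : (cz t).index = q * a := by
    have h1 := Subgroup.card_mul_index (cz t)
    rw [hct, H.card] at h1
    exact Nat.eq_of_mul_eq_mul_left (show 0 < 2 * c by have := H.cpos; omega) (h1.trans (by ring))
  obtain ⟨k, hk, hk2⟩ := H.qa_eq
  rw [hidx, hk, Nat.add_sub_cancel, hc, pow_succ, mul_assoc (2 ^ m), mul_dvd_mul_iff_left (by positivity)] at hd
  rcases Nat.prime_two.dvd_mul.1 hd with h | h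
  · exact ho h
  · exact hk2 h

theorem not_mem_C {γ s : G} (hγ : orderOf γ = c) (hs : orderOf s = 2) (hst : s ≠ γ ^ (c / 2)) :
    s ∉ Subgroup.zpowers γ := fun h => hst (H.eq_t hγ h hs)

theorem sup_eq {γ s : G} (hγ : orderOf γ = c) (hs : orderOf s = 2) (hst : s ≠ γ ^ (c / 2))
    (hsH : s ∈ cz (γ ^ (c / 2))) (hct : Nat.card (cz (γ ^ (c / 2))) = 2 * c) :
    Subgroup.zpowers γ ⊔ Subgroup.zpowers s = cz (γ ^ (c / 2)) := by
  set C := Subgroup.zpowers γ with hC
  have hle : C ⊔ Subgroup.zpowers s ≤ cz (γ ^ (c / 2)) :=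
    sup_le (zpowers_le_cz (pow_mem (Subgroup.mem_zpowers γ) _)) (Subgroup.zpowers_le.2 hsH)
  refine Subgroup.eq_of_le_of_card_ge hle ?_
  have hlt : C < C ⊔ Subgroup.zpowers s := lt_of_le_not_ge le_sup_left fun h =>
    H.not_mem_C hγ hs hst (h (Subgroup.mem_sup_right (Subgroup.mem_zpowers s)))
  obtain ⟨k, hk⟩ := Subgroup.card_dvd_of_le hlt.le
  have hlt' := Set.ncard_lt_ncard (SetLike.coe_ssubset_coe.2 hlt) (Set.toFinite _)
  rw [← Nat.card_coe_set_eq, ← Nat.card_coe_set_eq] at hlt'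
  simp only [SetLike.coe_sort_coe] at hlt'
  have hcC : Nat.card C = c := by rw [hC, Nat.card_zpowers, hγ]
  rw [hk, hcC] at hlt'
  have : 2 ≤ k := by by_contra hk2; interval_cases k <;> omega
  rw [hct, hk, hcC]; nlinarith

theorem mul_self_mem_C {γ v : G} (hγ : orderOf γ = c) (hct : Nat.card (cz (γ ^ (c / 2))) = 2 * c)
    (hv : v ∈ cz (γ ^ (c / 2))) : v * v ∈ Subgroup.zpowers γ := by
  set C := Subgroup.zpowers γ with hC
  have hle : C ≤ cz (γ ^ (c / 2)) := zpowers_le_cz (pow_mem (Subgroup.mem_zpowers γ) _)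
  have hrel : (C.subgroupOf (cz (γ ^ (c / 2)))).index = 2 := by
    have h1 := Subgroup.card_mul_index (C.subgroupOf (cz (γ ^ (c / 2))))
    rw [Nat.card_congr (Subgroup.subgroupOfEquivOfLe hle).toEquiv, hct, hC, Nat.card_zpowers, hγ] at h1
    exact Nat.eq_of_mul_eq_mul_left H.cpos (h1.trans (mul_comm 2 c))
  exact Subgroup.mul_self_mem_of_index_two hrel ⟨v, hv⟩

/-- All involutions are conjugate to the involution of the even torus. -/
theorem conj_t {γ : G} (hγ : orderOf γ = c) {m o : ℕ}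
    {T : Sylow 2 G} (hT : Subgroup.zpowers (γ ^ o) ≤ (T : Subgroup G))
    (hX : Nat.card (Subgroup.zpowers (γ ^ o)) = 2 ^ m) (hTc : Nat.card (T : Subgroup G) = 2 ^ (m + 1))
    {w : G} (hw : orderOf w = 2) : ∃ g, g * w * g⁻¹ = γ ^ (c / 2) := by
  haveI : Fact (Nat.Prime 2) := ⟨Nat.prime_two⟩
  obtain ⟨Q, hQ⟩ := (IsPGroup.of_card (n := 1) (show Nat.card (Subgroup.zpowers w) = 2 ^ 1 by
    rw [Nat.card_zpowers, hw, pow_one])).exists_le_sylow
  obtain ⟨k, hk⟩ := MulAction.exists_smul_eq G Q T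
  have hwT : k * w * k⁻¹ ∈ (T : Subgroup G) := by
    rw [← hk, Sylow.smul_def]
    exact Subgroup.smul_mem_pointwise_smul _ (MulAut.conj k) _ (hQ (Subgroup.mem_zpowers w))
  by_contra hno
  push Not at hno
  have hrel : (Subgroup.zpowers (γ ^ o)).relIndex (T : Subgroup G) = 2 := by
    have h1 := Subgroup.card_mul_index ((Subgroup.zpowers (γ ^ o)).subgroupOf (T : Subgroup G))
    rw [Nat.card_congr (Subgroup.subgroupOfEquivOfLe hT).toEquiv, hX, hTc, pow_succ] at h1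
    exact Nat.eq_of_mul_eq_mul_left (by positivity) h1
  obtain ⟨N, hN, hN2, hwN⟩ := CfsgLib.Transfer.thompson_transfer T hT hrel
    (t := k * w * k⁻¹) (mul_self_of_orderOf ((MulEquiv.orderOf_eq (MulAut.conj k) w).trans hw)) fun g hg => by
      refine hno (g * k) ?_
      have h2 : orderOf (g * (k * w * k⁻¹) * g⁻¹) = 2 := by
        rw [show g * (k * w * k⁻¹) * g⁻¹ = MulAut.conj (g * k) w by simp [MulAut.conj_apply, mul_assoc],
          MulEquiv.orderOf_eq, hw]
      rw [show g * k * w * (g * k)⁻¹ = g * (k * w * k⁻¹) * g⁻¹ by group]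
      exact H.eq_t hγ ((Subgroup.zpowers_le.2 (pow_mem (Subgroup.mem_zpowers γ) o)) hg) h2
  refine hwN ?_
  have hle : commutator G ≤ N := by
    rw [commutator_def, Subgroup.commutator_le]
    intro x _ y _
    rw [commutatorElement_def]
    simp only [Subgroup.mul_mem_iff_of_index_two hN2, inv_mem_iff]
    tauto
  rw [H.perfect, top_le_iff] at hle
  rw [hle]; exact Subgroup.mem_top _

/-- No element of order four of the even torus commutes with a second involution. -/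
theorem sq_eq_one_of_commute {γ s y : G} (hγ : orderOf γ = c) (hct : Nat.card (cz (γ ^ (c / 2))) = 2 * c)
    (hs : s ≠ γ ^ (c / 2)) (hconj : ∃ g, g * s * g⁻¹ = γ ^ (c / 2)) (hy : y ∈ Subgroup.zpowers γ)
    {k : ℕ} (hyk : orderOf y = 2 ^ k) (hys : y ∈ cz s) : y * y = 1 := by
  by_contra hne
  have hk : 2 ≤ k := by
    by_contra h
    interval_cases k
    · rw [pow_zero, orderOf_eq_one_iff] at hyk; exact hne (by rw [hyk, one_mul])
    · rw [pow_one] at hyk; exact hne (mul_self_of_orderOf hyk)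
  set y' := y ^ 2 ^ (k - 2) with hy'
  have hd : 2 ^ k = 2 ^ (k - 2) * 4 := by rw [show (4 : ℕ) = 2 ^ 2 by norm_num, ← pow_add]; congr 1; omega
  have hy4 : orderOf y' = 4 := by
    rw [hy', orderOf_pow, hyk, Nat.gcd_eq_right ⟨4, hd⟩, hd, Nat.mul_div_cancel_left _ (by positivity)]
  have hy2 : orderOf (y' * y') = 2 := by
    rw [← pow_two, orderOf_pow, hy4]
    rfl
  have hy't : y' * y' = γ ^ (c / 2) :=
    H.eq_t hγ (mul_mem (pow_mem hy _) (pow_mem hy _)) hy2
  obtain ⟨g, hg⟩ := hconj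
  have hv : g * y' * g⁻¹ ∈ cz (γ ^ (c / 2)) := hg ▸ (cz_conj g).2 (pow_mem hys _)
  have hvv := H.eq_t hγ (H.mul_self_mem_C hγ hct hv) (by
    rw [show g * y' * g⁻¹ * (g * y' * g⁻¹) = MulAut.conj g (y' * y') by simp [MulAut.conj_apply, mul_assoc],
      MulEquiv.orderOf_eq, hy2])
  refine hs ?_
  rw [show g * y' * g⁻¹ * (g * y' * g⁻¹) = g * (y' * y') * g⁻¹ by group, hy't] at hvv
  exact mul_left_cancel (mul_right_cancel (hg.trans hvv.symm))

end Hyp

end CfsgLib.SpecPSLTwo
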